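import Mathlib
set_option autoImplicit false

namespace Cfsg.Agent.Lib.Helper1

universe u

variable {G : Type u} [Group G]

/-- local class-two calculus: `c = [b,a]` commutes with `a` and `b` -/
theorem loc_swap_pow_left {a b c : G} (hc : b * a = c * (a * b))
    (hcb : Commute c b) (n : ℕ) : b ^ n * a = c ^ n * (a * b ^ n) := by
  induction n with
  | zero => simp
  | succ n ih =>
    have h1 : Commute (c ^ n) b := hcb.pow_left n
    calc b ^ (n + 1) * a = b * (b ^ n * a) := by rw [pow_succ']; group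
      _ = b * (c ^ n * (a * b ^ n)) := by rw [ih]
      _ = c ^ n * (b * a) * b ^ n := by rw [← mul_assoc, ← h1.eq]; group
      _ = c ^ n * (c * (a * b)) * b ^ n := by rw [hc]
      _ = c ^ (n + 1) * (a * b ^ (n + 1)) := by rw [pow_succ, pow_succ']; group

theorem loc_swap_pow_right {a b c : G} (hc : b * a = c * (a * b)) (hca : Commute c a)
    (n : ℕ) : b * a ^ n = c ^ n * (a ^ n * b) := by
  induction n with
  | zero => simp
  | succ n ih =>
    have h1 : Commute c (a ^ n) := hca.pow_right n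
    calc b * a ^ (n + 1) = (b * a ^ n) * a := by rw [pow_succ]; group
      _ = c ^ n * (a ^ n * b) * a := by rw [ih]
      _ = c ^ n * a ^ n * (b * a) := by group
      _ = c ^ n * a ^ n * (c * (a * b)) := by rw [hc]
      _ = c ^ n * (a ^ n * c) * (a * b) := by group
      _ = c ^ n * (c * a ^ n) * (a * b) := by rw [h1.eq]
      _ = c ^ (n + 1) * (a ^ (n + 1) * b) := by rw [pow_succ, pow_succ]; group

theorem loc_mul_pow {a b c : G} (hc : b * a = c * (a * b)) (hca : Commute c a)
    (hcb : Commute c b) (n : ℕ) : (a * b) ^ n = a ^ n * b ^ n * c ^ (n.choose 2) := by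
  induction n with
  | zero => simp
  | succ n ih =>
    have e1 := loc_swap_pow_left hc hcb n
    have e2 : (n + 1).choose 2 = n.choose 2 + n := by
      rw [Nat.choose_succ_succ' n 1, Nat.choose_one_right, add_comm]
    have k1 : Commute (c ^ n.choose 2) (a * b) := (hca.mul_right hcb).pow_left _
    have k2 : Commute (c ^ n) (a * b ^ n) := (hca.mul_right (hcb.pow_right n)).pow_left _
    have k3 : Commute (c ^ n) b := hcb.pow_left n
    have k4 : Commute (c ^ n) (c ^ n.choose 2) := (Commute.refl c).pow_pow _ _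
    rw [e2, pow_add c]
    generalize c ^ n = u at *
    generalize c ^ (n.choose 2) = v at *
    calc (a * b) ^ (n + 1) = (a * b) ^ n * (a * b) := pow_succ _ _
      _ = a ^ n * b ^ n * v * (a * b) := by rw [ih]
      _ = a ^ n * b ^ n * ((a * b) * v) := by rw [← k1.eq]; simp only [mul_assoc]
      _ = a ^ n * (b ^ n * a) * b * v := by simp only [mul_assoc]
      _ = a ^ n * ((a * b ^ n) * u) * b * v := by rw [e1, k2.eq]
      _ = a ^ n * a * b ^ n * (u * b) * v := by simp only [mul_assoc]
      _ = a ^ n * a * b ^ n * (b * u) * v := by rw [k3.eq]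
      _ = a ^ n * a * (b ^ n * b) * (u * v) := by simp only [mul_assoc]
      _ = a ^ (n + 1) * b ^ (n + 1) * (v * u) := by rw [k4.eq, pow_succ, pow_succ]

theorem prime_dvd_choose_two_pow {p n : ℕ} (hp : p.Prime) (hn : 1 ≤ n) (h2 : p ^ n ≠ 2) :
    p ∣ (p ^ n).choose 2 := by
  rw [Nat.choose_two_right]
  obtain ⟨m, rfl⟩ : ∃ m, n = m + 1 := ⟨n - 1, by omega⟩
  rcases hp.eq_two_or_odd' with rfl | hodd
  · -- `p = 2`, `m ≥ 1`
    obtain ⟨k, rfl⟩ : ∃ k, m = k + 1 := by
      refine ⟨m - 1, ?_⟩
      rcases Nat.eq_zero_or_pos m with rfl | h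
      · simp at h2
      · omega
    have : 2 ^ (k + 1 + 1) * (2 ^ (k + 1 + 1) - 1) / 2 = 2 * (2 ^ k * (2 ^ (k + 1 + 1) - 1)) := by
      rw [pow_succ, pow_succ]
      have : 2 ^ k * 2 * 2 * (2 ^ k * 2 * 2 - 1) = 2 * (2 * (2 ^ k * (2 ^ k * 2 * 2 - 1))) := by ring
      rw [this, Nat.mul_div_cancel_left _ (by norm_num)]
    rw [this]
    exact dvd_mul_right _ _
  · have h1 : Even (p ^ (m + 1) - 1) := by
      have : Odd (p ^ (m + 1)) := hodd.pow
      exact Nat.Odd.sub_odd this odd_one
    obtain ⟨t, ht⟩ := h1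
    rw [ht, ← two_mul, ← mul_assoc, mul_comm _ 2, mul_assoc, Nat.mul_div_cancel_left _ (by norm_num),
      pow_succ', mul_assoc]
    exact dvd_mul_right _ _

end Cfsg.Agent.Lib.Helper1
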