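import Mathlib
import Cfsg.Agent.Lib.Helper1.FF8
import Cfsg.Agent.Lib.Helper14.GL2Syl

set_option autoImplicit false

/-! Coprime operator groups permuting the `SL₂(p)`-factors of the failure-of-factorisation structure. -/

namespace Cfsg.Agent.Lib.Helper1

open Subgroup Cfsg Cfsg.Agent.Lib.Helper12 Matrix

/-- the "norm" `∏ₓ x e x⁻¹` of an element commuting with all its `X`-conjugates -/
theorem exists_norm_elt {G : Type*} [Group G] (X : Subgroup G) [Finite X] (e : G) (C L : Subgroup G)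
    (h : ∀ x ∈ X, x * e * x⁻¹ = e ∨ x * e * x⁻¹ ∈ C)
    (hcomm : ∀ x ∈ X, Commute e (x * e * x⁻¹))
    (hL : ∀ x ∈ X, x * e * x⁻¹ ∈ L) :
    ∃ f ∈ L ⊓ centralizer (X : Set G), ∃ c ∈ C,
      f = e ^ Nat.card ↥((centralizer ({e} : Set G)).subgroupOf X) * c := by
  classical
  haveI := Fintype.ofFinite X
  obtain ⟨k, hkdef⟩ : ∃ k : Set G, k = Set.range (fun x : X => (x : G) * e * (x : G)⁻¹) := ⟨_, rfl⟩
  have hk : ∀ a ∈ k, ∀ b ∈ k, a * b = b * a := by
    rw [hkdef]
    rintro _ ⟨x, rfl⟩ _ ⟨y, rfl⟩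
    have h1 := (hcomm ((x : G)⁻¹ * y) (mul_mem (inv_mem x.2) y.2)).eq
    calc (x : G) * e * (x : G)⁻¹ * ((y : G) * e * (y : G)⁻¹)
        = x * (e * ((x : G)⁻¹ * y * e * ((x : G)⁻¹ * y)⁻¹)) * (x : G)⁻¹ := by group
      _ = x * (((x : G)⁻¹ * y * e * ((x : G)⁻¹ * y)⁻¹) * e) * (x : G)⁻¹ := by rw [h1]
      _ = _ := by group
  letI : CommGroup (closure k) := closureCommGroupOfComm hk
  have hmem : ∀ x : X, (x : G) * e * (x : G)⁻¹ ∈ closure k := fun x =>
    subset_closure (by rw [hkdef]; exact ⟨x, rfl⟩)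
  have hnorm : ∀ y : X, ∀ g ∈ closure k, (y : G) * g * (y : G)⁻¹ ∈ closure k := by
    intro y
    have : closure k ≤ (closure k).comap (MulAut.conj (y : G)).toMonoidHom := by
      rw [closure_le]
      intro g hg
      have hg' := hg
      rw [hkdef] at hg'
      obtain ⟨x, rfl⟩ := hg'
      change (y : G) * ((x : G) * e * (x : G)⁻¹) * (y : G)⁻¹ ∈ closure k
      have h2 := hmem (y * x)
      have h3 : ((y * x : X) : G) * e * ((y * x : X) : G)⁻¹ =
          (y : G) * ((x : G) * e * (x : G)⁻¹) * (y : G)⁻¹ := by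
        push_cast
        group
      rwa [h3] at h2
    exact fun g hg => this hg
  let u : X → closure k := fun x => ⟨(x : G) * e * (x : G)⁻¹, hmem x⟩
  let cy : X → (closure k →* closure k) := fun y =>
    { toFun := fun g => ⟨(y : G) * g * (y : G)⁻¹, hnorm y g g.2⟩
      map_one' := by
        apply Subtype.ext
        simp
      map_mul' := by
        intro a b
        apply Subtype.ext
        simp }
  have hfix : ∀ y : X, cy y (∏ x, u x) = ∏ x, u x := by
    intro y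
    rw [map_prod]
    apply Fintype.prod_equiv (Equiv.mulLeft y)
    intro x
    apply Subtype.ext
    change (y : G) * ((x : G) * e * (x : G)⁻¹) * (y : G)⁻¹ = ((y * x : X) : G) * e * ((y * x : X) : G)⁻¹
    push_cast
    group
  have hsplit := Finset.prod_filter_mul_prod_filter_not (Finset.univ : Finset X)
    (fun x : X => (x : G) * e * (x : G)⁻¹ = e) u
  have h1 : ∏ x ∈ Finset.univ.filter (fun x : X => (x : G) * e * (x : G)⁻¹ = e), u x =
      (u 1) ^ Nat.card ↥((centralizer ({e} : Set G)).subgroupOf X) := by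
    rw [Finset.prod_eq_pow_card (b := u 1)]
    · congr 1
      rw [Nat.card_eq_fintype_card, Fintype.card_subtype]
      congr 1
      ext x
      simp only [Finset.mem_filter, Finset.mem_univ, true_and, mem_subgroupOf,
        mem_centralizer_singleton_iff]
      constructor
      · intro hx
        calc (x : G) * e = (x : G) * e * (x : G)⁻¹ * x := by group
          _ = e * x := by rw [hx]
      · intro hx
        rw [hx]; group
    · intro x hx
      apply Subtype.ext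
      change (x : G) * e * (x : G)⁻¹ = ((1 : X) : G) * e * ((1 : X) : G)⁻¹
      rw [(Finset.mem_filter.mp hx).2]
      simp
  have h2 : ∏ x ∈ Finset.univ.filter (fun x : X => ¬ (x : G) * e * (x : G)⁻¹ = e), u x ∈
      C.subgroupOf (closure k) := by
    apply Subgroup.prod_mem
    intro x hx
    rcases h x x.2 with h3 | h3
    · exact absurd h3 (Finset.mem_filter.mp hx).2
    · exact h3
  have h3 : ∏ x, u x ∈ L.subgroupOf (closure k) := by
    apply Subgroup.prod_mem
    intro x _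
    exact hL x x.2
  refine ⟨((∏ x, u x : closure k) : G), ⟨h3, ?_⟩, _, h2, ?_⟩
  · change ((∏ x, u x : closure k) : G) ∈ centralizer (X : Set G)
    rw [mem_centralizer_iff]
    intro y hy
    have h4 := congrArg Subtype.val (hfix ⟨y, hy⟩)
    change y * ((∏ x, u x : closure k) : G) * y⁻¹ = _ at h4
    calc y * ((∏ x, u x : closure k) : G) = y * ((∏ x, u x : closure k) : G) * y⁻¹ * y := by group
      _ = _ := by rw [h4]
  · rw [← hsplit, h1]
    have : ((u 1 : closure k) : G) = e := by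
      change ((1 : X) : G) * e * ((1 : X) : G)⁻¹ = e
      simp
    rw [Subgroup.coe_mul, Subgroup.coe_pow, this]
    rfl

open scoped IsMulCommutative in
/-- an element of `q`-power order normalising an elementary abelian group of order `p²`
centralises it, unless `q ∣ p (p² - 1)`. -/
theorem mem_centralizer_of_card_sq {G : Type*} [Group G] [Finite G] {p q : ℕ} [Fact p.Prime]
    [Fact q.Prime] {W : Subgroup G} (hW : IsElementaryAbelian p W) (hcard : Nat.card W = p ^ 2)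
    {x : G} (hx : x ∈ normalizer (W : Set G)) {k : ℕ} (hxq : x ^ q ^ k = 1)
    (hq : ¬ q ∣ p * (p ^ 2 - 1)) : x ∈ centralizer (W : Set G) := by
  have hp : p.Prime := Fact.out
  have hqp : q.Prime := Fact.out
  haveI := hW.1
  obtain ⟨ψ, hψ⟩ := exists_mulAut_hom (p := p) ↥W (fun w => by
    ext
    exact hW.2 w w.2) hcard
  let α : ↥(normalizer (W : Set G)) →* (Matrix (Fin 2) (Fin 2) (ZMod p))ˣ :=
    (ψ.comp W.normalizerMonoidHom).toHomUnits
  have h1 : (α ⟨x, hx⟩) ^ q ^ k = 1 := by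
    rw [← map_pow]
    have : (⟨x, hx⟩ : ↥(normalizer (W : Set G))) ^ q ^ k = 1 := Subtype.ext hxq
    rw [this, map_one]
  have h2 : (α ⟨x, hx⟩) ^ Nat.card (GL (Fin 2) (ZMod p)) = 1 := pow_card_eq_one'
  have hcop : (q ^ k).Coprime (Nat.card (GL (Fin 2) (ZMod p))) := by
    apply Nat.Coprime.pow_left
    rw [Nat.Prime.coprime_iff_not_dvd hqp, Cfsg.Agent.Lib.Helper14.card_GL2', ZMod.card]
    intro hd
    apply hq
    have h3 : p ^ 2 - 1 = (p - 1) * (p + 1) := by
      obtain ⟨m, rfl⟩ : ∃ m, p = m + 1 := ⟨p - 1, by have := hp.pos; omega⟩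
      simp only [Nat.add_sub_cancel]
      have : (m + 1) ^ 2 = m * (m + 1 + 1) + 1 := by ring
      rw [this, Nat.add_sub_cancel]
    rw [h3]
    rcases (Nat.Prime.dvd_mul hqp).mp hd with h4 | h4
    · rcases (Nat.Prime.dvd_mul hqp).mp h4 with h5 | h5
      · exact Dvd.dvd.mul_right h5 _
      · have h6 := hqp.dvd_of_dvd_pow h5
        exact Dvd.dvd.mul_left (Dvd.dvd.mul_right h6 _) _
    · exact Dvd.dvd.mul_left (Dvd.dvd.mul_left h4 _) _
  have h3 : α ⟨x, hx⟩ = 1 := by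
    have h4 := pow_gcd_eq_one.mpr ⟨h1, h2⟩
    rwa [Nat.Coprime.gcd_eq_one hcop, pow_one] at h4
  have h4 : ψ (W.normalizerMonoidHom ⟨x, hx⟩) = 1 := by
    have := congrArg Units.val h3
    exact this
  have h5 : W.normalizerMonoidHom ⟨x, hx⟩ = 1 := hψ (by rw [h4, map_one])
  have h6 : (⟨x, hx⟩ : ↥(normalizer (W : Set G))) ∈ W.normalizerMonoidHom.ker := h5
  rw [normalizerMonoidHom_ker] at h6
  exact h6

variable {G : Type*} [Group G] [Finite G] {p : ℕ} [Fact p.Prime] {V H Q : Subgroup G}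

theorem IsTv.cj' {A : Subgroup G} (hA : IsTv p V H A) {g : G} (hgH : g ∈ normalizer (H : Set G))
    (hgV : g ∈ normalizer (V : Set G)) : IsTv p V H (Helper12.cj g A) := by
  refine ⟨?_, by rw [card_cj, hA.card], ?_⟩
  · have := cj_mono (g := g) hA.le
    rwa [cj_eq_of_mem_normalizer hgH] at this
  · rw [centralizer_cj]
    have h1 : V ⊓ Helper12.cj g (centralizer (A : Set G)) = Helper12.cj g (V ⊓ centralizer (A : Set G)) := by
      rw [cj_inf, cj_eq_of_mem_normalizer hgV]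
    rw [h1, card_cj, hA.cardC]

omit [Finite G] [Fact p.Prime] in
theorem EE_cj' (A : Subgroup G) {g : G} (hg : g ∈ normalizer (Q : Set G)) :
    EE Q (cj g A) = cj g (EE Q A) := by
  rw [cj_sup, cj_commutator, cj_eq_of_mem_normalizer hg]

theorem FF.commute_EE_K (h : FF p V H Q)
    (hgen : ∀ K : Subgroup G, (∀ B, IsTv p V H B → B ≤ K) → H ≤ K) {A : Subgroup G}
    (hA : IsTv p V H A) {e c : G} (he : e ∈ EE Q A)
    (hc : c ∈ H ⊓ centralizer ((⁅V, EE Q A⁆ : Subgroup G) : Set G)) : e * c = c * e := by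
  have h1 := commutator_mem_commutator he hc
  rw [h.comm_EE_K hgen hA, mem_bot, commutatorElement_eq_one_iff_mul_comm] at h1
  exact h1

section op

variable (h : FF p V H Q) (hgen : ∀ K : Subgroup G, (∀ B, IsTv p V H B → B ≤ K) → H ≤ K)
  {X : Subgroup G} (hXH : X ≤ normalizer (H : Set G)) (hXV : X ≤ normalizer (V : Set G))
  (hXQ : X ≤ normalizer (Q : Set G)) {q : ℕ} [Fact q.Prime] (hXq : IsPGroup q X)
  (hq : ¬ q ∣ Nat.card H)
include h hgen hXH hXV hXQ hXq hq

theorem FF.op_not_dvd {A : Subgroup G} (hA : IsTv p V H A) : ¬ q ∣ p * (p ^ 2 - 1) := by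
  intro hd
  apply hq
  rw [← h.card_E hA] at hd
  exact hd.trans (card_dvd_of_le (h.E_le hA))

theorem FF.op_centralizes_W {A : Subgroup G} (hA : IsTv p V H A) {x : G} (hx : x ∈ X)
    (hxE : cj x (EE Q A) = EE Q A) : x ∈ centralizer ((⁅V, EE Q A⁆ : Subgroup G) : Set G) := by
  obtain ⟨k, hk⟩ := hXq ⟨x, hx⟩
  have hk' : x ^ q ^ k = 1 := congrArg Subtype.val hk
  exact mem_centralizer_of_card_sq (Cfsg.Agent.Lib.Helper4.elemAb_of_le (h.W_le hA) h.hV)
    (h.card_comm_E hA) (mem_normalizer_commutator (hXV hx) (mem_normalizer_iff_cj.mpr hxE)) hk'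
    (h.op_not_dvd hgen hXH hXV hXQ hXq hq hA)

theorem FF.op_centralizes_E {A : Subgroup G} (hA : IsTv p V H A) {x : G} (hx : x ∈ X)
    (hxE : cj x (EE Q A) = EE Q A) {e : G} (he : e ∈ EE Q A) : x * e * x⁻¹ = e := by
  have hxW := h.op_centralizes_W hgen hXH hXV hXQ hXq hq hA hx hxE
  have heW : e ∈ normalizer ((⁅V, EE Q A⁆ : Subgroup G) : Set G) :=
    h.H_le_normalizer_W hgen hA (h.E_le hA he)
  have h1 : x * (e * x⁻¹ * e⁻¹) ∈ centralizer ((⁅V, EE Q A⁆ : Subgroup G) : Set G) :=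
    mul_mem hxW (conj_mem_centralizer_of_mem_normalizer heW (inv_mem hxW))
  have h2 : x * e * x⁻¹ ∈ EE Q A := by
    have := conj_mem_cj (g := x) he
    rwa [hxE] at this
  have h3 : x * (e * x⁻¹ * e⁻¹) ∈ EE Q A ⊓ centralizer ((⁅V, EE Q A⁆ : Subgroup G) : Set G) := by
    refine ⟨?_, h1⟩
    have : x * (e * x⁻¹ * e⁻¹) = x * e * x⁻¹ * e⁻¹ := by group
    rw [this]
    exact (EE Q A).mul_mem h2 ((EE Q A).inv_mem he)
  rw [h.E_inf_centralizer hA, mem_bot] at h3
  calc x * e * x⁻¹ = x * (e * x⁻¹ * e⁻¹) * e := by group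
    _ = e := by rw [h3, one_mul]

theorem FF.op_conj_E {A : Subgroup G} (hA : IsTv p V H A) {x : G} (hx : x ∈ X) {e : G}
    (he : e ∈ EE Q A) : x * e * x⁻¹ = e ∨
      x * e * x⁻¹ ∈ H ⊓ centralizer ((⁅V, EE Q A⁆ : Subgroup G) : Set G) := by
  by_cases hxE : cj x (EE Q A) = EE Q A
  · exact Or.inl (h.op_centralizes_E hgen hXH hXV hXQ hXq hq hA hx hxE he)
  · right
    have hB := hA.cj' (hXH hx) (hXV hx)
    have h1 : EE Q (cj x A) ≠ EE Q A := by rwa [EE_cj' A (hXQ hx)]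
    have h2 := h.EE_le_K_of_ne hA hB h1
    have h3 : x * e * x⁻¹ ∈ EE Q (cj x A) := by
      rw [EE_cj' A (hXQ hx)]; exact conj_mem_cj he
    exact ⟨h.E_le hB h3, h2 h3⟩

/-- `H = C_H(X) C_H(W)`, elementwise on `E` -/
theorem FF.op_exists_fixed {A : Subgroup G} (hA : IsTv p V H A) {e : G} (he : e ∈ EE Q A) :
    ∃ f ∈ H ⊓ centralizer (X : Set G),
      ∃ c ∈ H ⊓ centralizer ((⁅V, EE Q A⁆ : Subgroup G) : Set G), f = e * c := by
  have hqp : q.Prime := Fact.out
  obtain ⟨f, hf, c, hc, hfc⟩ := exists_norm_elt X e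
    (H ⊓ centralizer ((⁅V, EE Q A⁆ : Subgroup G) : Set G)) H
    (fun x hx => h.op_conj_E hgen hXH hXV hXQ hXq hq hA hx he)
    (fun x hx => by
      rcases h.op_conj_E hgen hXH hXV hXQ hXq hq hA hx he with h1 | h1
      · rw [h1]
      · exact h.commute_EE_K hgen hA he h1)
    (fun x hx => conj_mem_of_mem_normalizer (hXH hx) (h.E_le hA he))
  obtain ⟨k, hk⟩ := (hXq.to_subgroup ((centralizer ({e} : Set G)).subgroupOf X)).exists_card_eq
  rw [hk] at hfc
  have hcop : (q ^ k).Coprime (orderOf e) := by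
    apply Nat.Coprime.pow_left
    rw [Nat.Prime.coprime_iff_not_dvd hqp]
    intro hd
    apply hq
    have h1 : orderOf e ∣ Nat.card H := by
      have := orderOf_dvd_natCard (⟨e, h.E_le hA he⟩ : ↥H)
      rwa [Subgroup.orderOf_mk] at this
    exact hd.trans h1
  obtain ⟨m, hm⟩ := exists_pow_eq_self_of_coprime hcop
  refine ⟨f ^ m, pow_mem hf m, c ^ m, pow_mem hc m, ?_⟩
  have hcomm : Commute (e ^ q ^ k) c := Commute.pow_left (h.commute_EE_K hgen hA he hc) _
  rw [hfc, hcomm.mul_pow, hm]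

/-- a subgroup containing `C_H(X)` and a conjugate of every transvection subgroup contains `H` -/
theorem FF.op_le (M : Subgroup G) (hM1 : H ⊓ centralizer (X : Set G) ≤ M)
    (hM2 : ∀ B, IsTv p V H B → ∃ g ∈ H, cj g B ≤ M) : H ≤ M := by
  apply hgen
  intro B hB
  obtain ⟨g, hg, hgM⟩ := hM2 B hB
  have hA := hB.cj h.hHV hg
  have hE : EE Q (cj g B) = EE Q B := by
    rw [h.EE_cj B hg, cj_eq_of_mem_normalizer (h.H_le_normalizer_EE hgen hB hg)]
  obtain ⟨A, hAdef⟩ : ∃ A, A = cj g B := ⟨_, rfl⟩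
  rw [← hAdef] at hgM hA hE
  have hBE : B ≤ EE Q A := by
    rw [hE]; exact le_sup_right
  refine le_trans hBE ?_
  obtain ⟨x, hx, hne⟩ := h.exists_cj_ne hA
  rw [h.EE_eq hA hx hne]
  refine sup_le hgM ?_
  have hxH : x ∈ EE Q A ⊔ (H ⊓ centralizer ((⁅V, EE Q A⁆ : Subgroup G) : Set G)) := by
    rw [h.EE_sup_K hgen hA]; exact h.hQH hx
  obtain ⟨e, he, c0, hc0, rfl⟩ := (mem_sup_of_le_normalizer
    (inf_le_left.trans (h.H_le_normalizer_EE hgen hA))).mp hxH
  obtain ⟨f, hf, c, hc, hfc⟩ := h.op_exists_fixed hgen hXH hXV hXQ hXq hq hA he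
  rintro _ ⟨a, ha, rfl⟩
  change e * c0 * a * (e * c0)⁻¹ ∈ M
  have haE : a ∈ EE Q A := le_sup_right (a := ⁅Q, A⁆) ha
  have h1 := h.commute_EE_K hgen hA haE hc0
  have h2 := h.commute_EE_K hgen hA haE hc
  have h3 : e * c0 * a * (e * c0)⁻¹ = f * a * f⁻¹ := by
    rw [hfc]
    calc e * c0 * a * (e * c0)⁻¹ = e * (c0 * a) * c0⁻¹ * e⁻¹ := by group
      _ = e * (a * c0) * c0⁻¹ * e⁻¹ := by rw [h1]
      _ = e * (a * c) * c⁻¹ * e⁻¹ := by group
      _ = e * (c * a) * c⁻¹ * e⁻¹ := by rw [h2]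
      _ = _ := by group
  rw [h3]
  exact mul_mem (mul_mem (hM1 hf) (hgM ha)) (inv_mem (hM1 hf))

end op

end Cfsg.Agent.Lib.Helper1
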