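import Mathlib
import Cfsg.Agent.Lib.Helper1.FFX1
import Cfsg.Agent.Lib.Helper16.Comm

set_option autoImplicit false

/-! `H / Q` is a `2`-group in the failure-of-factorisation situation (`p = 2`). -/

namespace Cfsg.Agent.Lib.Helper1

open Subgroup Cfsg

theorem commute_closure {M : Type*} [Group M] {S : Set M} (h : ∀ a ∈ S, ∀ b ∈ S, Commute a b) :
    ∀ a ∈ closure S, ∀ b ∈ closure S, Commute a b := by
  have h1 : ∀ b ∈ S, closure S ≤ centralizer ({b} : Set M) := by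
    intro b hb
    rw [closure_le]
    intro a ha
    exact mem_centralizer_singleton_iff.mpr (h a ha b hb)
  have h2 : ∀ a ∈ closure S, closure S ≤ centralizer ({a} : Set M) := by
    intro a ha
    rw [closure_le]
    intro b hb
    exact mem_centralizer_singleton_iff.mpr (mem_centralizer_singleton_iff.mp (h1 b hb ha)).symm
  intro a ha b hb
  exact (mem_centralizer_singleton_iff.mp (h2 a ha hb)).symm

variable {G : Type*} [Group G] [Finite G] {V H Q : Subgroup G}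

theorem FF.comm_tv_mem_Q (h : FF 2 V H Q)
    (hgen : ∀ K : Subgroup G, (∀ B, IsTv 2 V H B → B ≤ K) → H ≤ K) {A B : Subgroup G}
    (hA : IsTv 2 V H A) (hB : IsTv 2 V H B) {a b : G} (ha : a ∈ A) (hb : b ∈ B) :
    a * b * a⁻¹ * b⁻¹ ∈ Q := by
  have haE : a ∈ EE Q A := le_sup_right (a := ⁅Q, A⁆) ha
  rcases h.le_EE_or_le_centralizer hA hB with h1 | h1
  · have hbE : b ∈ EE Q A := h1 hb
    have hidx : (Q.subgroupOf (EE Q A)).index = 2 := h.relIndex_Q_E hA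
    have key : (⟨a, haE⟩ * ⟨b, hbE⟩ : ↥(EE Q A)) * ((⟨a, haE⟩ : ↥(EE Q A))⁻¹ * (⟨b, hbE⟩ : ↥(EE Q A))⁻¹) ∈
        Q.subgroupOf (EE Q A) := by
      rw [mul_mem_iff_of_index_two hidx, mul_mem_iff_of_index_two hidx,
        mul_mem_iff_of_index_two hidx, inv_mem_iff, inv_mem_iff]
    have h2 : a * b * (a⁻¹ * b⁻¹) ∈ Q := key
    rwa [← mul_assoc] at h2
  · have h2 := h.commute_EE_K hgen hA haE (c := b) ⟨hB.le hb, h1 hb⟩
    rw [h2, mul_assoc b a, mul_inv_cancel, mul_one, mul_inv_cancel]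
    exact one_mem _

theorem FF.mem_Q_of_odd (h : FF 2 V H Q)
    (hgen : ∀ K : Subgroup G, (∀ B, IsTv 2 V H B → B ≤ K) → H ≤ K) {y : G} (hy : y ∈ H)
    (ho : (orderOf y).Coprime 2) : y ∈ Q := by
  haveI hn : (Q.subgroupOf H).Normal := (normal_subgroupOf_iff_le_normalizer h.hQH).mpr h.hHQ
  obtain ⟨S, hS⟩ : ∃ S : Set (↥H ⧸ Q.subgroupOf H), S = {s | ∃ B, IsTv 2 V H B ∧ ∃ b : ↥H, (b : G) ∈ B ∧
      s = QuotientGroup.mk' (Q.subgroupOf H) b} := ⟨_, rfl⟩
  have hc : ∀ a ∈ S, ∀ b ∈ S, Commute a b := by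
    intro s hs t ht
    rw [hS] at hs ht
    obtain ⟨A, hA, a, ha, rfl⟩ := hs
    obtain ⟨B, hB, b, hb, rfl⟩ := ht
    have h1 : a * b * a⁻¹ * b⁻¹ ∈ Q.subgroupOf H := h.comm_tv_mem_Q hgen hA hB ha hb
    have h2 := (QuotientGroup.eq_one_iff (N := Q.subgroupOf H) _).mpr h1
    change QuotientGroup.mk' (Q.subgroupOf H) a * QuotientGroup.mk' (Q.subgroupOf H) b =
      QuotientGroup.mk' (Q.subgroupOf H) b * QuotientGroup.mk' (Q.subgroupOf H) a
    rw [← map_mul, ← map_mul]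
    have h3 : QuotientGroup.mk' (Q.subgroupOf H) (a * b * a⁻¹ * b⁻¹) = 1 := h2
    have h4 : a * b = (a * b * a⁻¹ * b⁻¹) * (b * a) := by group
    rw [h4, map_mul, h3, one_mul]
  have hP : IsPGroup 2 (closure S) := by
    apply Cfsg.Agent.Lib.Helper16.isPGroup_closure_of_commute _ (commute_closure hc)
    intro s hs
    rw [hS] at hs
    obtain ⟨B, hB, b, hb, rfl⟩ := hs
    refine ⟨1, ?_⟩
    rw [pow_one, ← map_pow]
    have : b ^ 2 = 1 := Subtype.ext (hB.pow_eq_one hb)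
    rw [this, map_one]
  have htop : H ≤ ((closure S).comap (QuotientGroup.mk' (Q.subgroupOf H))).map H.subtype := by
    apply hgen
    intro B hB b hb
    refine ⟨⟨b, hB.le hb⟩, ?_, rfl⟩
    apply Subgroup.subset_closure
    rw [hS]
    exact ⟨B, hB, ⟨b, hB.le hb⟩, hb, rfl⟩
  obtain ⟨y', hy', hyy⟩ := htop hy
  obtain ⟨k, hk⟩ := hP ⟨_, hy'⟩
  have hk' : QuotientGroup.mk' (Q.subgroupOf H) y' ^ 2 ^ k = 1 := congrArg Subtype.val hk
  rw [← map_pow] at hk'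
  have h5 : y' ^ 2 ^ k ∈ Q.subgroupOf H := (QuotientGroup.eq_one_iff _).mp hk'
  have h6 : y ^ 2 ^ k ∈ Q := by
    rw [← hyy]
    exact h5
  have h7 : (orderOf y).Coprime (2 ^ k) := Nat.Coprime.pow_right k ho
  obtain ⟨m, hm⟩ := exists_pow_eq_self_of_coprime h7.symm
  rw [← hm]
  exact pow_mem h6 m

end Cfsg.Agent.Lib.Helper1
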