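import Mathlib
import Cfsg.Agent.Lib.Helper1.FF4
import Cfsg.Agent.Lib.Helper1.TA6
import Cfsg.Agent.Lib.Helper3.Dih

set_option autoImplicit false

namespace Cfsg.Agent.Lib.Helper1

open Subgroup Cfsg
open scoped commutatorElement
open Cfsg.Agent.Lib.Helper12 (cj mem_cj conj_mem_cj card_cj cj_inf cj_sup cj_commutator centralizer_cj
  cj_eq_of_mem_normalizer cj_mono cj_mul cj_inv_cj cj_eq_of_mem mem_normalizer_iff_cj)

theorem involves_S3_of_inverted {M : Type*} [Group M] [Finite M] {a y : M} (ha : a * a = 1)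
    (hinv : a * y * a⁻¹ = y⁻¹) (h3 : 3 ∣ orderOf y) : Involves (Equiv.Perm (Fin 3)) M := by
  set y₀ := y ^ (orderOf y / 3) with hy₀
  have ho : orderOf y₀ = 3 := orderOf_pow_orderOf_div (orderOf_pos y).ne' h3
  have hy3 : y₀ ^ 3 = 1 := by rw [← ho]; exact pow_orderOf_eq_one y₀
  have hy1 : y₀ ≠ 1 := by
    intro h
    rw [h, orderOf_one] at ho
    omega
  have hinv₀ : a * y₀ * a⁻¹ = y₀⁻¹ := by
    rw [hy₀, ← conj_pow, hinv, inv_pow]
  have hai : a⁻¹ = a := inv_eq_of_mul_eq_one_left ha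
  have h1 : a * y₀ = y₀⁻¹ * a := by
    calc a * y₀ = (a * y₀ * a⁻¹) * a := by group
      _ = y₀⁻¹ * a := by rw [hinv₀]
  have hyi : y₀⁻¹ = y₀ * y₀ := by
    apply inv_eq_of_mul_eq_one_right
    rw [← hy3, pow_succ, pow_two, mul_assoc]
  obtain ⟨e⟩ := Cfsg.Agent.Lib.Helper3.closure_equiv_perm3 (d := a) (e := a * y₀) ha
    (by
      calc a * y₀ * (a * y₀) = (a * y₀) * a * y₀ := by group
        _ = y₀⁻¹ * (a * a) * y₀ := by rw [h1]; group
        _ = 1 := by rw [ha]; group)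
    (by
      calc a * (a * y₀) * a = (a * a) * y₀ * a := by group
        _ = y₀ * a := by rw [ha, one_mul]
        _ = (y₀⁻¹)⁻¹ * a := by rw [inv_inv]
        _ = (y₀ * y₀)⁻¹ * a := by rw [← hyi]
        _ = y₀⁻¹ * (y₀⁻¹ * a) := by group
        _ = y₀⁻¹ * (a * y₀) := by rw [h1]
        _ = (y₀⁻¹ * a) * y₀ := by group
        _ = a * y₀ * y₀ := by rw [← h1]
        _ = a * y₀ * (a * a) * y₀ := by rw [ha, mul_one]
        _ = a * y₀ * a * (a * y₀) := by group)
    (by
      intro h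
      apply hy1
      have : a * 1 = a * y₀ := by rw [mul_one]; exact h
      exact (mul_left_cancel this).symm)
  rw [involves_iff]
  exact ⟨_, e.toMonoidHom, e.surjective⟩

theorem pow_six_eq_one_GL2 (u : (Matrix (Fin 2) (Fin 2) (ZMod 2))ˣ) : u ^ 6 = 1 := by
  have h1 : Nat.card (Matrix (Fin 2) (Fin 2) (ZMod 2))ˣ = 6 := by
    have := Cfsg.Agent.Lib.Helper14.card_GL2' (F := ZMod 2)
    rw [ZMod.card] at this
    exact this
  rw [← h1]
  exact pow_card_eq_one'

variable {G : Type*} [Group G] [Finite G]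

open scoped IsMulCommutative in
/-- an element of odd order acting nontrivially on a four-group has order divisible by `3` -/
theorem three_dvd_orderOf_of_four {W : Subgroup G} (hW : IsElementaryAbelian 2 W)
    (hcard : Nat.card W = 2 ^ 2) {y : G} (hyN : y ∈ normalizer (W : Set G))
    (hyC : y ∉ centralizer (W : Set G)) (hodd : Odd (orderOf y)) : 3 ∣ orderOf y := by
  haveI : Fact (Nat.Prime 2) := ⟨Nat.prime_two⟩
  haveI := hW.1
  obtain ⟨ψ, hψ⟩ := exists_mulAut_hom (p := 2) ↥W (fun w => by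
    ext
    exact hW.2 w w.2) hcard
  set φ : MulAut W := W.normalizerMonoidHom ⟨y, hyN⟩ with hφ
  have h6 : φ ^ 6 = 1 := by
    apply hψ
    have h1 := pow_six_eq_one_GL2 (ψ.toHomUnits φ)
    have h2 := congrArg Units.val h1
    rw [Units.val_pow_eq_pow_val, MonoidHom.coe_toHomUnits, Units.val_one] at h2
    rw [map_pow, map_one, h2]
  have hn : φ ^ orderOf y = 1 := by
    rw [hφ, ← map_pow]
    have h3 : (⟨y, hyN⟩ : normalizer (W : Set G)) ^ orderOf y = 1 := by
      ext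
      simp [pow_orderOf_eq_one]
    rw [h3, map_one]
  by_contra h3
  apply hyC
  have hcop : Nat.gcd 6 (orderOf y) = 1 := by
    have h2 : Nat.Coprime 2 (orderOf y) := Nat.coprime_two_left.mpr hodd
    have h3' : Nat.Coprime 3 (orderOf y) := (Nat.Prime.coprime_iff_not_dvd Nat.prime_three).mpr h3
    exact Nat.Coprime.mul_left h2 h3'
  have h1 : φ = 1 := by
    have := pow_gcd_eq_one.mpr ⟨h6, hn⟩
    rwa [hcop, pow_one] at this
  have h4 : (⟨y, hyN⟩ : normalizer (W : Set G)) ∈ W.normalizerMonoidHom.ker := h1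
  rw [normalizerMonoidHom_ker, mem_subgroupOf] at h4
  exact h4

/-- **L3** -/
theorem three_dvd_orderOf_of_transvections {U : Subgroup G} (hU : IsElementaryAbelian 2 U)
    {a a' : G} (ha : a ∈ normalizer (U : Set G)) (ha' : a' ∈ normalizer (U : Set G))
    (ha2 : a ^ 2 = 1) (ha'2 : a' ^ 2 = 1)
    (hca : 2 * Nat.card ↥(U ⊓ centralizer {a}) = Nat.card U)
    (hca' : 2 * Nat.card ↥(U ⊓ centralizer {a'}) = Nat.card U)
    (hodd : Odd (orderOf (a' * a))) (hy : a' * a ∉ centralizer (U : Set G)) :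
    3 ∣ orderOf (a' * a) := by
  have hUc := (Cfsg.Agent.Lib.Helper4.isMulCommutative_iff U).mp hU.1
  have hcardZ : ∀ b : G, b ∈ normalizer (U : Set G) →
      2 * Nat.card ↥(U ⊓ centralizer {b}) = Nat.card U → Nat.card ↥(⁅U, zpowers b⁆) = 2 := by
    intro b hb hcb
    rw [commutator_zpowers_eq hUc hb]
    have h1 := card_cmHom_range hUc hb
    rw [← hcb] at h1
    exact Nat.eq_of_mul_eq_mul_right Nat.card_pos h1
  have hZ := hcardZ a ha hca
  have hZ' := hcardZ a' ha' hca'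
  have haU : zpowers a ≤ normalizer (U : Set G) := zpowers_le.mpr ha
  have ha'U : zpowers a' ≤ normalizer (U : Set G) := zpowers_le.mpr ha'
  have hZU : ⁅U, zpowers a⁆ ≤ U := commutator_le_left_of_le_normalizer haU
  have hZ'U : ⁅U, zpowers a'⁆ ≤ U := commutator_le_left_of_le_normalizer ha'U
  have haZ : a ∈ centralizer ((⁅U, zpowers a⁆ : Subgroup G) : Set G) :=
    centralizes_of_card_prime Nat.prime_two hZ
      (le_normalizer_commutator_right haU (mem_zpowers a)) ha2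
  have ha'Z' : a' ∈ centralizer ((⁅U, zpowers a'⁆ : Subgroup G) : Set G) :=
    centralizes_of_card_prime Nat.prime_two hZ'
      (le_normalizer_commutator_right ha'U (mem_zpowers a')) ha'2
  have hDU : zpowers a ⊔ zpowers a' ≤ normalizer (U : Set G) := sup_le haU ha'U
  have hW : ⁅U, zpowers a ⊔ zpowers a'⁆ = ⁅U, zpowers a⁆ ⊔ ⁅U, zpowers a'⁆ :=
    commutator_sup_eq hZU hZ'U
  have hyD : a' * a ∈ zpowers a ⊔ zpowers a' :=
    mul_mem (le_sup_right (a := zpowers a) (mem_zpowers a'))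
      (le_sup_left (b := zpowers a') (mem_zpowers a))
  have hWU : ⁅U, zpowers a ⊔ zpowers a'⁆ ≤ U := commutator_le_left_of_le_normalizer hDU
  have hycop : (orderOf (a' * a)).Coprime 2 := (Nat.coprime_two_left.mpr hodd).symm
  have hyW : a' * a ∉ centralizer ((⁅U, zpowers a ⊔ zpowers a'⁆ : Subgroup G) : Set G) := by
    intro hc
    apply hy
    rw [mem_centralizer_iff]
    intro u hu
    have hw : (a' * a) * u * (a' * a)⁻¹ * u⁻¹ ∈ ⁅U, zpowers a ⊔ zpowers a'⁆ := comm_inv_mem hyD hu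
    exact (commute_of_chain (p := 2) (g := a' * a) (v := u) (w := (a' * a) * u * (a' * a)⁻¹ * u⁻¹)
      (by group) ((mem_centralizer_iff.mp hc) _ hw).symm (hU.2 _ (hWU hw)) hycop).symm
  have hdisj : ⁅U, zpowers a⁆ ⊓ ⁅U, zpowers a'⁆ = ⊥ := by
    rcases inf_eq_bot_or_eq_of_card_prime Nat.prime_two hZ hZ' with h1 | h1
    · exact h1
    · exfalso
      apply hyW
      rw [hW, ← h1, sup_idem]
      exact mul_mem (h1 ▸ ha'Z') haZ
  have hcardW : Nat.card ↥(⁅U, zpowers a ⊔ zpowers a'⁆) = 2 ^ 2 := by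
    have h1 := Cfsg.Agent.Lib.Helper4.card_mul_card_eq_of_le_normalizer ⁅U, zpowers a⁆
      ⁅U, zpowers a'⁆ (by
        refine le_trans ?_ (centralizer_le_normalizer _)
        intro z hz
        rw [mem_centralizer_iff]
        intro z' hz'
        exact hUc z' (hZ'U hz') z (hZU hz))
    rw [hdisj, card_bot, mul_one, hZ, hZ'] at h1
    rw [hW, ← h1]; norm_num
  exact three_dvd_orderOf_of_four (Cfsg.Agent.Lib.Helper4.elemAb_of_le hWU hU) hcardW
    (le_normalizer_commutator_right hDU hyD) hyW hodd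

variable {p : ℕ} [Fact p.Prime] {V H Q : Subgroup G}

/-- Lemma S0 -/
theorem FF.eq_one_of_centralizes (h : FF p V H Q) {B : Subgroup G} (hBH : B ≤ H)
    (hBp : IsPGroup p B) {y : G} (hyQ : y ∈ Q) (hyB : y ∈ centralizer (B : Set G))
    (hyU : V ⊓ centralizer (B : Set G) ≤ centralizer {y}) : y = 1 := by
  have hyH : y ∈ H := h.hQH hyQ
  have hcop : (Nat.card (zpowers y)).Coprime p :=
    Nat.Coprime.of_dvd_left (card_dvd_of_le (zpowers_le.mpr hyQ)) h.hQp
  have hBy : B ≤ centralizer ((zpowers y : Subgroup G) : Set G) := by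
    rw [le_centralizer_iff, zpowers_le]
    exact hyB
  have hUy : V ⊓ centralizer (B : Set G) ≤ centralizer ((zpowers y : Subgroup G) : Set G) := by
    rw [centralizer_zpowers_eq]
    exact hyU
  have h6 := thompson_PxQ p B (zpowers y) hBp hcop hBy _ V rfl h.isPGroup_V (hBH.trans h.hHV)
    ((zpowers_le.mpr hyH).trans h.hHV) hUy
  rw [commutator_eq_bot_iff_le_centralizer, le_centralizer_iff, zpowers_le] at h6
  exact h.eq_one_of_mem hyH h6

theorem FF.step_four_or_S3 [Fact (Nat.Prime 2)] (h : FF 2 V H Q) {A : Subgroup G} (hAH : A ≤ H)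
    (hA : IsElementaryAbelian 2 A) {a : G} (haA : a ∈ A) (ha1 : a ≠ 1) :
    Involves (Equiv.Perm (Fin 3)) ↥H ∨ ∃ B ≤ A, Nat.card A = 2 * Nat.card B ∧
      4 * Nat.card ↥(V ⊓ centralizer (A : Set G)) ≤ Nat.card ↥(V ⊓ centralizer (B : Set G)) := by
  have hAc := (Cfsg.Agent.Lib.Helper4.isMulCommutative_iff A).mp hA.1
  obtain ⟨B, hBA, haB, hsup, hB⟩ := h.exists_hyperplane hAH hA haA ha1
  have ha2 : a ^ 2 = 1 := hA.2 a haA
  have hord : orderOf a = 2 := orderOf_eq_prime ha2 ha1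
  have haH := hAH haA
  have hBH := hBA.trans hAH
  have hBp : IsPGroup 2 B := (Cfsg.Agent.Lib.Helper4.elemAb_isPGroup hA).to_le hBA
  have hdisj : B ⊓ zpowers a = ⊥ := by
    rw [eq_bot_iff]
    rintro x ⟨hxB, hxa⟩
    obtain ⟨i, rfl⟩ := mem_zpowers_iff.mp hxa
    rcases mem_or_zpow_eq_one Nat.prime_two ha2 B i hxB with h1 | h1
    · exact absurd h1 haB
    · exact h1
  have haCB : a ∈ centralizer (B : Set G) := by
    rw [mem_centralizer_iff]
    intro s hs
    exact hAc s (hBA hs) a haA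
  have hcard : Nat.card A = 2 * Nat.card B := by
    have h1 := Cfsg.Agent.Lib.Helper4.card_mul_card_eq_of_le_normalizer B (zpowers a) (by
      refine le_trans ?_ (centralizer_le_normalizer _)
      rw [le_centralizer_iff, zpowers_le]
      exact haCB)
    rw [hsup, hdisj, card_bot, mul_one, Nat.card_zpowers, hord] at h1
    rw [← h1, mul_comm]
  have hUa : V ⊓ centralizer (A : Set G) = (V ⊓ centralizer (B : Set G)) ⊓ centralizer {a} := by
    rw [← hsup, centralizer_sup_zpowers, inf_assoc]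
  by_cases hc : 4 * Nat.card ↥(V ⊓ centralizer (A : Set G)) ≤ Nat.card ↥(V ⊓ centralizer (B : Set G))
  · exact Or.inr ⟨B, hBA, hcard, hc⟩
  left
  obtain ⟨U, hUdef⟩ : ∃ U, U = V ⊓ centralizer (B : Set G) := ⟨_, rfl⟩
  rw [hUa, ← hUdef] at hc
  have hUV : U ≤ V := hUdef ▸ inf_le_left
  have hUe : IsElementaryAbelian 2 U := Cfsg.Agent.Lib.Helper4.elemAb_of_le hUV h.hV
  have hUp : IsPGroup 2 U := Cfsg.Agent.Lib.Helper4.elemAb_isPGroup hUe
  have hlt : U ⊓ centralizer {a} < U := by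
    refine lt_of_le_of_ne inf_le_left ?_
    intro heq
    apply h.not_le_centralizer hBH hBp haH haCB hB
    rw [← hUdef]
    exact inf_eq_left.mp heq
  have hca : 2 * Nat.card ↥(U ⊓ centralizer {a}) = Nat.card U := by
    obtain ⟨m, hm⟩ := hUp.exists_card_eq
    obtain ⟨k, hk⟩ := (hUp.to_le hlt.le).exists_card_eq
    have h1 := Cfsg.Agent.Lib.Helper12.card_lt_card_of_lt hlt
    rw [hm, hk] at h1 hc ⊢
    have h2 : k < m := (Nat.pow_lt_pow_iff_right (by norm_num)).mp h1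
    have h3 : m < k + 2 := by
      by_contra h3
      apply hc
      calc 4 * 2 ^ k = 2 ^ (k + 2) := by rw [pow_add]; ring
        _ ≤ 2 ^ m := Nat.pow_le_pow_right (by norm_num) (not_lt.mp h3)
    have h4 : m = k + 1 := by omega
    rw [h4, pow_succ, mul_comm]
  -- an element of `C_Q(B)` not commuting with `a`
  obtain ⟨q, hqX, hqa⟩ : ∃ q ∈ Q ⊓ centralizer (B : Set G), q * a ≠ a * q := by
    by_contra hcon
    push Not at hcon
    apply hB
    rw [mem_centralizer_iff]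
    exact hcon
  obtain ⟨hqQ, hqB⟩ := hqX
  have hqB' : q ∈ centralizer (B : Set G) := hqB
  have hqH := h.hQH hqQ
  have hai : a⁻¹ = a := by
    apply inv_eq_of_mul_eq_one_left
    rw [← pow_two]; exact ha2
  have hnorm : ∀ g ∈ H, g ∈ centralizer (B : Set G) → g ∈ normalizer (U : Set G) := by
    intro g hgH hgB
    rw [hUdef, mem_normalizer_iff_cj, cj_inf, cj_eq_of_mem_normalizer (h.hHV hgH), cj_eq_of_mem hgB]
  have haU := hnorm a haH haCB
  have hqU := hnorm q hqH hqB'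
  have ha'H : q * a * q⁻¹ ∈ H := mul_mem (mul_mem hqH haH) (inv_mem hqH)
  have ha'B : q * a * q⁻¹ ∈ centralizer (B : Set G) := mul_mem (mul_mem hqB' haCB) (inv_mem hqB')
  have ha'U := hnorm _ ha'H ha'B
  have ha'2 : (q * a * q⁻¹) ^ 2 = 1 := by rw [conj_pow, ha2]; group
  have hca' : 2 * Nat.card ↥(U ⊓ centralizer {q * a * q⁻¹}) = Nat.card U := by
    have h1 : U ⊓ centralizer {q * a * q⁻¹} = cj q (U ⊓ centralizer {a}) := by
      rw [cj_inf, cj_eq_of_mem_normalizer hqU, ← centralizer_zpowers_eq, ← centralizer_zpowers_eq,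
        ← centralizer_cj, cj_zpowers]
    rw [h1, card_cj, hca]
  have hyQ : q * a * q⁻¹ * a ∈ Q := by
    have := h.comm_mem_Q hqQ haH
    rwa [hai] at this
  have hyB : q * a * q⁻¹ * a ∈ centralizer (B : Set G) := mul_mem ha'B haCB
  have hy1 : q * a * q⁻¹ * a ≠ 1 := by
    intro hy1
    apply hqa
    calc q * a = (q * a * q⁻¹ * a) * (a⁻¹ * q) := by group
      _ = a * q := by rw [hy1, one_mul, hai]
  have hyU : q * a * q⁻¹ * a ∉ centralizer (U : Set G) := by
    intro hc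
    apply hy1
    apply h.eq_one_of_centralizes hBH hBp hyQ hyB
    rw [← hUdef, ← centralizer_zpowers_eq, le_centralizer_iff, zpowers_le]
    exact hc
  have hodd : Odd (orderOf (q * a * q⁻¹ * a)) :=
    Nat.coprime_two_left.mp (h.orderOf_coprime hyQ).symm
  have h3 := three_dvd_orderOf_of_transvections hUe haU ha'U ha2 ha'2 hca hca' hodd hyU
  have hyH : q * a * q⁻¹ * a ∈ H := h.hQH hyQ
  apply involves_S3_of_inverted (M := ↥H) (a := ⟨a, haH⟩) (y := ⟨q * a * q⁻¹ * a, hyH⟩)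
  · ext
    change a * a = 1
    rw [← pow_two]; exact ha2
  · ext
    change a * (q * a * q⁻¹ * a) * a⁻¹ = (q * a * q⁻¹ * a)⁻¹
    have h5 : (q * a * q⁻¹ * a)⁻¹ = a⁻¹ * q * a⁻¹ * q⁻¹ := by group
    have h6 : a * (q * a * q⁻¹ * a) * a⁻¹ = a * q * a * q⁻¹ := by group
    rw [h5, h6, hai]
  · rw [Subgroup.orderOf_mk]
    exact h3

theorem FF.card_sq_mul_le [Fact (Nat.Prime 2)] (h : FF 2 V H Q)
    (hS3 : ¬ Involves (Equiv.Perm (Fin 3)) ↥H) : ∀ (n : ℕ) (A : Subgroup G), Nat.card A = n →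
    A ≤ H → IsElementaryAbelian 2 A →
    Nat.card A ^ 2 * Nat.card ↥(V ⊓ centralizer (A : Set G)) ≤ Nat.card V := by
  intro n
  induction n using Nat.strong_induction_on with
  | _ n ih =>
  intro A hn hAH hA
  by_cases hA1 : A = ⊥
  · rw [hA1, centralizer_bot_eq_top, inf_top_eq, card_bot, one_pow, one_mul]
  · obtain ⟨⟨a, haA⟩, ha1'⟩ := Subgroup.ne_bot_iff_exists_ne_one.mp hA1
    have ha1 : a ≠ 1 := fun h => ha1' (Subtype.ext h)
    rcases h.step_four_or_S3 hAH hA haA ha1 with h1 | ⟨B, hBA, hcard, hstep⟩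
    · exact absurd h1 hS3
    · have hBpos : 0 < Nat.card B := Nat.card_pos
      have h1 := ih (Nat.card B) (by rw [← hn, hcard]; omega) B rfl (hBA.trans hAH)
        (Cfsg.Agent.Lib.Helper4.elemAb_of_le hBA hA)
      calc Nat.card A ^ 2 * Nat.card ↥(V ⊓ centralizer (A : Set G))
          = Nat.card B ^ 2 * (4 * Nat.card ↥(V ⊓ centralizer (A : Set G))) := by rw [hcard]; ring
        _ ≤ Nat.card B ^ 2 * Nat.card ↥(V ⊓ centralizer (B : Set G)) := Nat.mul_le_mul_left _ hstep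
        _ ≤ Nat.card V := h1

end Cfsg.Agent.Lib.Helper1
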