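import Mathlib
import Cfsg.Agent.Lib.Helper29.PSolvable
import Cfsg.Agent.Lib.Helper1.Cores

set_option autoImplicit false

/-! Dual of Hall–Higman 1.2.3 for `p`-solvable groups (adapted from `Helper29.centralizer_pCore_le'`). -/

namespace Cfsg.Agent.Lib.Helper1

open Cfsg Cfsg.Agent.Lib.Helper29 Cfsg.Agent.Lib.Helper8

theorem centralizer_pPrimeCore_le_of_psol {G : Type*} [Group G] [Finite G] {p : ℕ} [hp : Fact p.Prime]
    (h : IsPSolvable p G) (hred : pCore p G = ⊥) :
    Subgroup.centralizer (pPrimeCore p G : Set G) ≤ pPrimeCore p G := by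
  have hPn : (pPrimeCore p G).Normal := (pPrimeCore_spec p).1
  set P := pPrimeCore p G with hP
  set D := Subgroup.centralizer (P : Set G) with hD
  have hDn : D.Normal := inferInstance
  have hPp : (Nat.card P).Coprime p := coprime_card_pPrimeCore p
  by_contra hcon
  set Z : Subgroup D := P.subgroupOf D with hZ
  have hZp : (Nat.card Z).Coprime p := by
    refine Nat.Coprime.of_dvd_left ?_ hPp
    exact Subgroup.card_dvd_of_injective (Subgroup.inclusion (le_refl P) |>.comp
      ⟨⟨fun z => (⟨z.1.1, z.2⟩ : P), rfl⟩, fun _ _ => rfl⟩) (by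
        intro a b hab
        have := congrArg (fun x : P => (x : G)) hab
        exact Subtype.ext (Subtype.ext this))
  have hZcent : ∀ z ∈ Z, ∀ d : D, d * z = z * d := by
    intro z hz d
    apply Subtype.ext
    have h1 : (z : G) ∈ P := hz
    have h2 := Subgroup.mem_centralizer_iff.mp d.2 z h1
    exact h2.symm
  have hnt : Nontrivial (D ⧸ Z) := by
    obtain ⟨d, hd, hdP⟩ := SetLike.not_le_iff_exists.mp hcon
    refine ⟨⟨QuotientGroup.mk' Z ⟨d, hd⟩, 1, ?_⟩⟩
    intro h1
    have h2 : (⟨d, hd⟩ : D) ∈ Z := (QuotientGroup.eq_one_iff (⟨d, hd⟩ : D)).mp h1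
    exact hdP h2
  obtain ⟨Nb, hNbn, hNbne, hPP⟩ := psol_exists_normal (psol_quotient (psol_subgroup h D) Z)
  set E : Subgroup D := Nb.comap (QuotientGroup.mk' Z) with hE
  have hEn : E.Normal := hNbn.comap _
  have hmapE : E.map (QuotientGroup.mk' Z) = Nb :=
    Subgroup.map_comap_eq_self_of_surjective (QuotientGroup.mk'_surjective Z) Nb
  have hEZ : ¬ E ≤ Z := by
    intro hle
    apply hNbne
    rw [← hmapE, Subgroup.map_eq_bot_iff, QuotientGroup.ker_mk']
    exact hle
  have hZE : Z ≤ E := by
    intro z hz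
    change QuotientGroup.mk' Z z ∈ Nb
    have h1 : QuotientGroup.mk' Z z = 1 := (QuotientGroup.eq_one_iff z).mpr hz
    rw [h1]
    exact Nb.one_mem
  have hsubD : ∀ K : Subgroup D, K.IsSubnormal → (K.map D.subtype).IsSubnormal := fun K hK =>
    (subnIn_map_subtype.mpr hK).isSubnormal hDn.isSubnormal
  set Z' : Subgroup E := Z.subgroupOf E with hZ'
  have hidx : Z'.index = Nat.card Nb := by
    have h1 : Z'.index = Z.relIndex E := rfl
    have h2 : Z = (⊥ : Subgroup (D ⧸ Z)).comap (QuotientGroup.mk' Z) := by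
      rw [MonoidHom.comap_bot, QuotientGroup.ker_mk']
    rw [h1]
    conv_lhs => rw [h2]
    rw [Subgroup.relIndex_comap, hmapE, Subgroup.relIndex_bot_left]
  have hZ'card : Nat.card Z' = Nat.card Z :=
    Nat.card_congr (Subgroup.subgroupOfEquivOfLe hZE).toEquiv
  rcases hPP with ⟨m, hm⟩ | hcop
  · have hZ'c : Z' ≤ Subgroup.center E := by
      intro z hz
      rw [Subgroup.mem_center_iff]
      intro e
      apply Subtype.ext
      exact hZcent z.1 hz e.1
    obtain ⟨K, hKn, hKcard, hsup, -⟩ := exists_normal_complement_of_central Z' hZ'c (by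
      rw [hZ'card, hidx, hm]
      exact Nat.Coprime.pow_right m hZp)
    have hKsub : ((K.map E.subtype).map D.subtype).IsSubnormal :=
      hsubD _ ((subnIn_map_subtype.mpr hKn.isSubnormal).isSubnormal hEn.isSubnormal)
    have hKp : IsPGroup p K := IsPGroup.of_card (n := m) (by rw [hKcard, hidx, hm])
    have hKle := le_pCore_of_isSubnormal (p := p) hKsub ((hKp.map _).map _)
    rw [hred, le_bot_iff, Subgroup.map_eq_bot_iff_of_injective _ D.subtype_injective,
      Subgroup.map_eq_bot_iff_of_injective _ E.subtype_injective] at hKle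
    rw [hKle, sup_bot_eq, hZ', Subgroup.subgroupOf_eq_top] at hsup
    exact hEZ hsup
  · have hEp : (Nat.card E).Coprime p := by
      rw [← Subgroup.card_mul_index Z', hZ'card, hidx]
      exact Nat.Coprime.mul_left hZp hcop
    have hle : E.map D.subtype ≤ P := le_pPrimeCore_of_isSubnormal (hsubD E hEn.isSubnormal) (by
      rw [Subgroup.card_map_of_injective D.subtype_injective]; exact hEp)
    apply hEZ
    intro e he
    exact hle ⟨e, he, rfl⟩

end Cfsg.Agent.Lib.Helper1
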