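import Mathlib
import Cfsg.Agent.Lib.Helper1.FFT0
import Cfsg.Agent.Lib.Helper1.FF8

set_option autoImplicit false

/-! Transfer of a (non-faithful) conjugation action on a normal elementary abelian subgroup `V` to
the holomorph of `V`, where the failure-of-factorisation library applies. -/

namespace Cfsg.Agent.Lib.Helper1

open Subgroup Cfsg SemidirectProduct

variable {G : Type*} [Group G] (V : Subgroup G) [hVn : V.Normal]

/-- the holomorph of `V` -/
abbrev Hol : Type _ := ↥V ⋊[MonoidHom.id (MulAut ↥V)] MulAut ↥V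

/-- `G → Hol V` via the conjugation action -/
noncomputable def holHom : G →* Hol V := (inr : MulAut ↥V →* Hol V).comp MulAut.conjNormal

/-- the copy of `V` in its holomorph -/
def holV : Subgroup (Hol V) := (inl : ↥V →* Hol V).range

instance instFiniteHol [Finite G] : Finite (Hol V) := by
  haveI : Finite (MulAut ↥V) := Finite.of_injective (fun f => (f : ↥V → ↥V)) DFunLike.coe_injective
  exact Finite.of_equiv _ (SemidirectProduct.equivProd (φ := MonoidHom.id (MulAut ↥V))).symm

theorem holHom_conj (g : G) (v : V) :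
    holHom V g * inl v * (holHom V g)⁻¹ = inl (MulAut.conjNormal g v) := by
  have h := SemidirectProduct.inl_aut (φ := MonoidHom.id (MulAut ↥V)) (MulAut.conjNormal g) v
  rw [MonoidHom.id_apply, map_inv] at h
  exact h.symm

theorem holHom_ker : (holHom V).ker = centralizer (V : Set G) := by
  ext g
  rw [MonoidHom.mem_ker, mem_centralizer_iff]
  constructor
  · intro h v hv
    have h1 := holHom_conj V g ⟨v, hv⟩
    rw [h, one_mul, inv_one, mul_one] at h1
    have h2 := congrArg Subtype.val (SemidirectProduct.inl_injective h1)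
    rw [MulAut.conjNormal_apply] at h2
    calc v * g = (g * v * g⁻¹) * g := by rw [← h2]
      _ = g * v := by group
  · intro h
    have h1 : (MulAut.conjNormal g : MulAut ↥V) = 1 := by
      ext v
      rw [MulAut.conjNormal_apply, MulAut.one_apply, ← h v v.2]
      group
    change inr (MulAut.conjNormal g) = 1
    rw [h1, map_one]

theorem holV_elemAb {p : ℕ} (hV : IsElementaryAbelian p V) : IsElementaryAbelian p (holV V) := by
  have hVc := (Cfsg.Agent.Lib.Helper4.isMulCommutative_iff V).mp hV.1
  refine ⟨(Cfsg.Agent.Lib.Helper4.isMulCommutative_iff _).mpr ?_, ?_⟩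
  · rintro _ ⟨v, rfl⟩ _ ⟨w, rfl⟩
    rw [← map_mul, ← map_mul]
    congr 1
    ext
    exact hVc v v.2 w w.2
  · rintro _ ⟨v, rfl⟩
    rw [← map_pow]
    have : v ^ p = 1 := by
      ext
      exact hV.2 v v.2
    rw [this, map_one]

theorem map_holHom_le_normalizer (K : Subgroup G) :
    K.map (holHom V) ≤ normalizer (holV V : Set (Hol V)) := by
  apply le_normalizer_of_forall_conj_mem
  rintro _ ⟨g, -, rfl⟩ _ ⟨v, rfl⟩
  rw [holHom_conj]
  exact ⟨_, rfl⟩

theorem map_holHom_inf_centralizer (K : Subgroup G) :
    K.map (holHom V) ⊓ centralizer (holV V : Set (Hol V)) = ⊥ := by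
  rw [eq_bot_iff]
  rintro _ ⟨⟨g, -, rfl⟩, hc⟩
  rw [mem_bot, ← MonoidHom.mem_ker, holHom_ker, mem_centralizer_iff]
  intro v hv
  have h1 := (mem_centralizer_iff.mp hc) (inl ⟨v, hv⟩) ⟨_, rfl⟩
  have h2 := holHom_conj V g ⟨v, hv⟩
  rw [← h1, mul_inv_cancel_right] at h2
  have h3 := congrArg Subtype.val (SemidirectProduct.inl_injective h2)
  rw [MulAut.conjNormal_apply] at h3
  calc v * g = (g * v * g⁻¹) * g := by rw [← h3]
    _ = g * v := by group

theorem card_holV : Nat.card (holV V) = Nat.card V := by
  unfold holV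
  rw [MonoidHom.range_eq_map, card_map_of_injective SemidirectProduct.inl_injective, card_top]

theorem holV_inf_centralizer (K : Subgroup G) :
    holV V ⊓ centralizer ((K.map (holHom V) : Subgroup (Hol V)) : Set (Hol V)) =
      ((centralizer (K : Set G)).subgroupOf V).map inl := by
  ext x
  constructor
  · rintro ⟨⟨v, rfl⟩, hc⟩
    refine ⟨v, ?_, rfl⟩
    change (v : G) ∈ centralizer (K : Set G)
    rw [mem_centralizer_iff]
    intro k hk
    have h1 := (mem_centralizer_iff.mp hc) (holHom V k) ⟨k, hk, rfl⟩
    have h2 := holHom_conj V k v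
    rw [h1, mul_inv_cancel_right] at h2
    have h3 := congrArg Subtype.val (SemidirectProduct.inl_injective h2)
    rw [MulAut.conjNormal_apply] at h3
    calc k * v = (k * v * k⁻¹) * k := by group
      _ = v * k := by rw [← h3]
  · rintro ⟨v, hv, rfl⟩
    refine ⟨⟨v, rfl⟩, ?_⟩
    change inl v ∈ centralizer ((K.map (holHom V) : Subgroup (Hol V)) : Set (Hol V))
    rw [mem_centralizer_iff]
    rintro _ ⟨k, hk, rfl⟩
    have hv' : (v : G) ∈ centralizer (K : Set G) := hv
    have h1 : k * (v : G) = v * k := (mem_centralizer_iff.mp hv') k hk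
    have h2 := holHom_conj V k v
    have h3 : (MulAut.conjNormal k v : ↥V) = v := by
      ext
      rw [MulAut.conjNormal_apply, h1]
      group
    rw [h3] at h2
    calc holHom V k * inl v = (holHom V k * inl v * (holHom V k)⁻¹) * holHom V k := by group
      _ = inl v * holHom V k := by rw [h2]

theorem card_holV_inf_centralizer (K : Subgroup G) :
    Nat.card ↥(holV V ⊓ centralizer ((K.map (holHom V) : Subgroup (Hol V)) : Set (Hol V))) =
      Nat.card ↥(V ⊓ centralizer (K : Set G)) := by
  rw [holV_inf_centralizer, card_map_of_injective SemidirectProduct.inl_injective,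
    ← inf_subgroupOf_left, Cfsg.Agent.Lib.Helper4.card_subgroupOf_of_le inf_le_left]

theorem card_map_holHom (K : Subgroup G) :
    Nat.card (K.map (holHom V)) * Nat.card ↥(K ⊓ centralizer (V : Set G)) = Nat.card K := by
  have h1 : K.map (holHom V) = ((holHom V).comp K.subtype).range := by
    rw [MonoidHom.range_eq_map, ← map_map, ← MonoidHom.range_eq_map, range_subtype]
  have h2 : ((holHom V).comp K.subtype).ker = (centralizer (V : Set G)).subgroupOf K := by
    rw [← holHom_ker]
    rfl
  rw [h1, ← card_mul_index ((holHom V).comp K.subtype).ker, index_ker, h2, mul_comm]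
  congr 1
  rw [← inf_subgroupOf_left, Cfsg.Agent.Lib.Helper4.card_subgroupOf_of_le inf_le_left]

end Cfsg.Agent.Lib.Helper1
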