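import Mathlib
import Cfsg.Agent.Lib.Helper1.FFX1

set_option autoImplicit false

/-! The diagonal plane in `C_V(X)`. -/

namespace Cfsg.Agent.Lib.Helper1

open Subgroup Cfsg Cfsg.Agent.Lib.Helper12

open scoped IsMulCommutative in
/-- the norm homomorphism `v ↦ ∏ₓ x v x⁻¹` of an abelian subgroup normalised by `X` -/
theorem exists_norm_hom {G : Type*} [Group G] (X V : Subgroup G) [Finite X] [IsMulCommutative V]
    (hXV : X ≤ normalizer (V : Set G)) :
    ∃ δ : ↥V →* ↥V, (∀ v, (δ v : G) ∈ centralizer (X : Set G)) ∧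
      (∀ (f : G) (hf : f ∈ normalizer (V : Set G)), f ∈ centralizer (X : Set G) → ∀ v : V,
        f * δ v * f⁻¹ = δ ⟨f * v * f⁻¹, conj_mem_of_mem_normalizer hf v.2⟩) ∧
      (∀ (v : V) (C : Subgroup G), (∀ x ∈ X, x * v * x⁻¹ = v ∨ x * v * x⁻¹ ∈ C) →
        ∃ c ∈ C, (δ v : G) = (v : G) ^ Nat.card ↥((centralizer ({(v : G)} : Set G)).subgroupOf X) * c) := by
  classical
  haveI := Fintype.ofFinite X
  let cy : X → (↥V →* ↥V) := fun y =>
    { toFun := fun g => ⟨(y : G) * g * (y : G)⁻¹, conj_mem_of_mem_normalizer (hXV y.2) g.2⟩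
      map_one' := by
        apply Subtype.ext
        simp
      map_mul' := by
        intro a b
        apply Subtype.ext
        simp }
  have hcy : ∀ (y : X) (v : V), ((cy y v : V) : G) = (y : G) * v * (y : G)⁻¹ := fun _ _ => rfl
  refine ⟨∏ x, cy x, ?_, ?_, ?_⟩
  · intro v
    rw [mem_centralizer_iff]
    intro y hy
    have h1 : cy ⟨y, hy⟩ ((∏ x, cy x) v) = (∏ x, cy x) v := by
      rw [MonoidHom.finset_prod_apply, map_prod]
      apply Fintype.prod_equiv (Equiv.mulLeft (⟨y, hy⟩ : X))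
      intro x
      apply Subtype.ext
      rw [hcy, hcy, hcy]
      change y * ((x : G) * v * (x : G)⁻¹) * y⁻¹ = (y * x) * v * (y * (x : G))⁻¹
      group
    have h2 := congrArg Subtype.val h1
    rw [hcy] at h2
    change y * _ * y⁻¹ = _ at h2
    calc y * (((∏ x, cy x) v : V) : G) = y * (((∏ x, cy x) v : V) : G) * y⁻¹ * y := by group
      _ = _ := by rw [h2]
  · intro f hf hfX v
    let cf : ↥V →* ↥V :=
      { toFun := fun g => ⟨f * g * f⁻¹, conj_mem_of_mem_normalizer hf g.2⟩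
        map_one' := by
          apply Subtype.ext
          simp
        map_mul' := by
          intro a b
          apply Subtype.ext
          simp }
    have h1 : cf ((∏ x, cy x) v) = (∏ x, cy x) (cf v) := by
      rw [MonoidHom.finset_prod_apply, MonoidHom.finset_prod_apply, map_prod]
      apply Finset.prod_congr rfl
      intro x _
      apply Subtype.ext
      change f * ((x : G) * v * (x : G)⁻¹) * f⁻¹ = (x : G) * (f * v * f⁻¹) * (x : G)⁻¹
      have h2 : (x : G) * f = f * x := mem_centralizer_iff.mp hfX x x.2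
      have h3 : f⁻¹ * (x : G)⁻¹ = (x : G)⁻¹ * f⁻¹ := by
        rw [← mul_inv_rev, ← mul_inv_rev, h2]
      calc f * ((x : G) * v * (x : G)⁻¹) * f⁻¹ = (f * x) * v * ((x : G)⁻¹ * f⁻¹) := by group
        _ = (x * f) * v * (f⁻¹ * (x : G)⁻¹) := by rw [h2, h3]
        _ = _ := by group
    exact congrArg Subtype.val h1
  · intro v C hC
    have hsplit := Finset.prod_filter_mul_prod_filter_not (Finset.univ : Finset X)
      (fun x : X => (x : G) * v * (x : G)⁻¹ = v) (fun x => cy x v)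
    have h1 : ∏ x ∈ Finset.univ.filter (fun x : X => (x : G) * v * (x : G)⁻¹ = v), cy x v =
        v ^ Nat.card ↥((centralizer ({(v : G)} : Set G)).subgroupOf X) := by
      rw [Finset.prod_eq_pow_card (b := v)]
      · congr 1
        rw [Nat.card_eq_fintype_card, Fintype.card_subtype]
        congr 1
        ext x
        simp only [Finset.mem_filter, Finset.mem_univ, true_and, mem_subgroupOf,
          mem_centralizer_singleton_iff]
        constructor
        · intro hx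
          calc (x : G) * v = (x : G) * v * (x : G)⁻¹ * x := by group
            _ = v * x := by rw [hx]
        · intro hx
          rw [hx]; group
      · intro x hx
        apply Subtype.ext
        rw [hcy]
        exact (Finset.mem_filter.mp hx).2
    have h2 : ∏ x ∈ Finset.univ.filter (fun x : X => ¬ (x : G) * v * (x : G)⁻¹ = v), cy x v ∈
        C.subgroupOf V := by
      apply Subgroup.prod_mem
      intro x hx
      rcases hC x x.2 with h3 | h3
      · exact absurd h3 (Finset.mem_filter.mp hx).2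
      · exact h3
    refine ⟨_, h2, ?_⟩
    rw [MonoidHom.finset_prod_apply, ← hsplit, h1, Subgroup.coe_mul, Subgroup.coe_pow]
    rfl

variable {G : Type*} [Group G] [Finite G] {p : ℕ} [Fact p.Prime] {V H Q : Subgroup G}

section op

variable (h : FF p V H Q) (hgen : ∀ K : Subgroup G, (∀ B, IsTv p V H B → B ≤ K) → H ≤ K)
  {X : Subgroup G} (hXH : X ≤ normalizer (H : Set G)) (hXV : X ≤ normalizer (V : Set G))
  (hXQ : X ≤ normalizer (Q : Set G)) {q : ℕ} [Fact q.Prime] (hXq : IsPGroup q X)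
  (hq : ¬ q ∣ Nat.card H)
include h hgen hXH hXV hXQ hXq hq

theorem FF.op_conj_W {A : Subgroup G} (hA : IsTv p V H A) {x : G} (hx : x ∈ X) {w : G}
    (hw : w ∈ ⁅V, EE Q A⁆) : x * w * x⁻¹ = w ∨ x * w * x⁻¹ ∈ V ⊓ centralizer (EE Q A : Set G) := by
  by_cases hxE : cj x (EE Q A) = EE Q A
  · left
    have h1 := h.op_centralizes_W hgen hXH hXV hXQ hXq hq hA hx hxE
    rw [← mem_centralizer_iff.mp h1 w hw]
    group
  · right
    have hB := hA.cj' (hXH hx) (hXV hx)
    have h1 : EE Q (cj x A) ≠ EE Q A := by rwa [EE_cj' A (hXQ hx)]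
    apply h.W_le_C_of_ne hA hB h1
    rw [EE_cj' A (hXQ hx)]
    have h2 := conj_mem_cj (g := x) hw
    rwa [cj_commutator, cj_eq_of_mem_normalizer (hXV hx)] at h2

theorem FF.op_exists_plane {A : Subgroup G} (hA : IsTv p V H A) :
    ∃ W : Subgroup G, W ≤ V ⊓ centralizer (X : Set G) ∧ Nat.card W = p ^ 2 ∧
      H ⊓ centralizer (X : Set G) ≤ normalizer (W : Set G) ∧
      ∀ f ∈ H ⊓ centralizer (X : Set G), (f ∈ centralizer (W : Set G) ↔
        f ∈ centralizer ((⁅V, EE Q A⁆ : Subgroup G) : Set G)) := by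
  have hp : p.Prime := Fact.out
  have hqp : q.Prime := Fact.out
  haveI := h.hV.1
  obtain ⟨δ, hδ1, hδ2, hδ3⟩ := exists_norm_hom X V hXV
  obtain ⟨W₁, hW₁⟩ : ∃ W₁, W₁ = ⁅V, EE Q A⁆ := ⟨_, rfl⟩
  have hqne : ¬ q ∣ p := fun hd =>
    h.op_not_dvd hgen hXH hXV hXQ hXq hq hA (Dvd.dvd.mul_right hd _)
  have hker : ∀ w : V, (w : G) ∈ W₁ → δ w = 1 → w = 1 := by
    intro w hw hδw
    rw [hW₁] at hw
    obtain ⟨c, hc, hwc⟩ := hδ3 w (V ⊓ centralizer (EE Q A : Set G))
      (fun x hx => h.op_conj_W hgen hXH hXV hXQ hXq hq hA hx hw)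
    obtain ⟨k, hk⟩ := (hXq.to_subgroup ((centralizer ({(w : G)} : Set G)).subgroupOf X)).exists_card_eq
    rw [hk, hδw] at hwc
    have h1 : (w : G) ^ q ^ k = c⁻¹ := by
      rw [eq_inv_iff_mul_eq_one]; exact hwc.symm
    have h2 : (w : G) ^ q ^ k ∈ ⁅V, EE Q A⁆ ⊓ (V ⊓ centralizer (EE Q A : Set G)) :=
      ⟨pow_mem hw _, by
        rw [h1]; exact (V ⊓ centralizer (EE Q A : Set G)).inv_mem hc⟩
    rw [h.W_inf_C hA, mem_bot] at h2
    have h3 : (w : G) ^ p = 1 := h.hV.2 w w.2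
    have h4 := pow_gcd_eq_one.mpr ⟨h2, h3⟩
    have hcop : (q ^ k).Coprime p := by
      apply Nat.Coprime.pow_left
      exact (Nat.Prime.coprime_iff_not_dvd hqp).mpr hqne
    rw [Nat.Coprime.gcd_eq_one hcop, pow_one] at h4
    exact Subtype.ext h4
  have hinj : ∀ w w' : V, (w : G) ∈ W₁ → (w' : G) ∈ W₁ → δ w = δ w' → w = w' := by
    intro w w' hw hw' heq
    have h1 : w * w'⁻¹ = 1 := by
      apply hker
      · exact mul_mem hw (inv_mem hw')
      · rw [map_mul, map_inv, heq, mul_inv_cancel]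
    exact mul_inv_eq_one.mp h1
  have hnormW₁ : ∀ f ∈ H, ∀ w ∈ W₁, f * w * f⁻¹ ∈ W₁ := by
    intro f hf w hw
    rw [hW₁] at hw ⊢
    exact conj_mem_of_mem_normalizer (h.H_le_normalizer_W hgen hA hf) hw
  refine ⟨((W₁.subgroupOf V).map δ).map V.subtype, ?_, ?_, ?_, ?_⟩
  · rintro _ ⟨_, ⟨w, -, rfl⟩, rfl⟩
    exact ⟨(δ w).2, hδ1 w⟩
  · rw [card_map_of_injective V.subtype_injective]
    have h1 := Nat.card_image_of_injOn (f := δ) (s := ((W₁.subgroupOf V : Subgroup V) : Set V))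
      (fun w hw w' hw' heq => hinj w w' hw hw' heq)
    have h2 : Nat.card ↥((W₁.subgroupOf V).map δ) = Nat.card ↥(W₁.subgroupOf V) := h1
    rw [h2, Cfsg.Agent.Lib.Helper4.card_subgroupOf_of_le (by rw [hW₁]; exact h.W_le hA), hW₁,
      h.card_comm_E hA]
  · apply le_normalizer_of_forall_conj_mem
    rintro f ⟨hfH, hfX⟩ _ ⟨_, ⟨w, hw, rfl⟩, rfl⟩
    refine ⟨δ ⟨f * w * f⁻¹, conj_mem_of_mem_normalizer (h.hHV hfH) w.2⟩, ⟨_, ?_, rfl⟩, ?_⟩
    · exact hnormW₁ f hfH w hw
    · exact (hδ2 f (h.hHV hfH) hfX w).symm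
  · rintro f ⟨hfH, hfX⟩
    rw [← hW₁]
    constructor
    · intro hf
      rw [mem_centralizer_iff]
      intro w hw
      have hwV : w ∈ V := by
        rw [hW₁] at hw; exact h.W_le hA hw
      have h1 := hδ2 f (h.hHV hfH) hfX ⟨w, hwV⟩
      have h2 : ((δ ⟨w, hwV⟩ : V) : G) ∈ ((W₁.subgroupOf V).map δ).map V.subtype :=
        ⟨_, ⟨⟨w, hwV⟩, hw, rfl⟩, rfl⟩
      have h3 := mem_centralizer_iff.mp hf _ h2
      have h4 : f * ((δ ⟨w, hwV⟩ : V) : G) * f⁻¹ = ((δ ⟨w, hwV⟩ : V) : G) := by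
        rw [← h3]; group
      rw [h4] at h1
      have h5 := hinj _ _ hw (hnormW₁ f hfH w hw) (Subtype.ext h1)
      have h6 : w = f * w * f⁻¹ := congrArg Subtype.val h5
      calc w * f = f * w * f⁻¹ * f := by rw [← h6]
        _ = f * w := by group
    · intro hf
      rw [mem_centralizer_iff]
      rintro _ ⟨_, ⟨w, hw, rfl⟩, rfl⟩
      have h1 := hδ2 f (h.hHV hfH) hfX w
      have h2 : f * (w : G) * f⁻¹ = w := by
        rw [← mem_centralizer_iff.mp hf w hw]; group
      have h3 : (⟨f * (w : G) * f⁻¹, conj_mem_of_mem_normalizer (h.hHV hfH) w.2⟩ : V) = w :=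
        Subtype.ext h2
      rw [h3] at h1
      change ((δ w : V) : G) * f = f * ((δ w : V) : G)
      calc ((δ w : V) : G) * f = f * ((δ w : V) : G) * f⁻¹ * f := by rw [h1]
        _ = _ := by group

end op

end Cfsg.Agent.Lib.Helper1
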