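import Mathlib
import Cfsg.Agent.Lib.Helper1.Nilp
import Cfsg.Agent.Lib.Helper1.FF2
import Cfsg.Agent.Lib.Helper17.CD
import Cfsg.Agent.S0058

set_option autoImplicit false

/-! Factorisations under coprime action of a noncyclic abelian group. -/

namespace Cfsg.Agent.Lib.Helper1

open Subgroup Cfsg
open scoped commutatorElement Pointwise

variable {G : Type*} [Group G]

theorem nilp_factor [Finite G] (A Q X Y : Subgroup G) [IsMulCommutative A] (hAnc : ¬ IsCyclic A)
    (hQn : Group.IsNilpotent Q) (hAQ : A ≤ normalizer (Q : Set G)) (hcop : (Nat.card A).Coprime (Nat.card Q))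
    (hX : X ≤ Q) (hY : Y ≤ Q)
    (hfac : ∀ a ∈ A, a ≠ 1 → ∀ g ∈ Q ⊓ centralizer {a}, ∃ x ∈ X, ∃ y ∈ Y, g = x * y) :
    ∀ g ∈ Q, ∃ x ∈ X, ∃ y ∈ Y, g = x * y := by
  have main : ∀ k : ℕ, ∀ N : Subgroup G, Nat.card N = k → N ≤ Q → Q ≤ normalizer (N : Set G) →
      A ≤ normalizer (N : Set G) → (∀ g ∈ Q, ∃ x ∈ X, ∃ y ∈ Y, ∃ m ∈ N, g = x * y * m) →
      ∀ g ∈ Q, ∃ x ∈ X, ∃ y ∈ Y, g = x * y := by
    intro k
    induction k using Nat.strong_induction_on with
    | _ k ih =>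
    intro N hNk hNQ hQN hAN hN
    by_cases hbot : N = ⊥
    · intro g hg
      obtain ⟨x, hx, y, hy, m, hm, rfl⟩ := hN g hg
      rw [hbot, mem_bot] at hm
      exact ⟨x, hx, y, hy, by rw [hm, mul_one]⟩
    obtain ⟨M, hM⟩ : ∃ M : Subgroup G, M = ⁅N, Q⁆ := ⟨_, rfl⟩
    have hMN : M ≤ N := hM ▸ commutator_le_of_le_normalizer hQN
    have hMne : M ≠ N := by
      intro h
      exact hbot (eq_bot_of_le_commutator hQn hNQ (by rw [← hM, h]))
    have hMlt : Nat.card M < k := by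
      rw [← hNk]
      exact lt_of_le_of_ne (card_le_of_le hMN) (fun h => hMne (eq_of_le_of_card_ge hMN h.ge))
    have hQM : Q ≤ normalizer (M : Set G) := hM ▸ le_normalizer_commutator_right hQN
    have hAM : A ≤ normalizer (M : Set G) := by
      intro a ha
      rw [hM, mem_normalizer_iff_map_conj_eq, map_commutator, mem_normalizer_iff_map_conj_eq.mp (hAN ha),
        mem_normalizer_iff_map_conj_eq.mp (hAQ ha)]
    refine ih _ hMlt M rfl (hMN.trans hNQ) hQM hAM ?_
    have hgen : ∀ a ∈ A, a ≠ 1 → ∀ n ∈ N ⊓ centralizer {a}, ∀ x ∈ X, ∀ y ∈ Y, ∀ m ∈ M,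
        ∃ x' ∈ X, ∃ y' ∈ Y, ∃ m' ∈ M, x * y * m * n = x' * y' * m' := by
      intro a ha ha1 n hn x hx y hy m hm
      obtain ⟨x₁, hx₁, y₁, hy₁, hn1⟩ := hfac a ha ha1 n ⟨hNQ hn.1, hn.2⟩
      have hc : y⁻¹ * n⁻¹ * y * n ∈ M := by
        have h1 : ⁅n⁻¹, y⁻¹⁆ ∈ ⁅N, Q⁆ := commutator_mem_commutator (N.inv_mem hn.1) (Q.inv_mem (hY hy))
        have h2 := inv_mem h1
        rw [commutatorElement_inv] at h2
        rw [hM]
        simpa [commutatorElement_def] using h2
      have hm' : n⁻¹ * m * n ∈ M := conj_mem_of_mem_normalizer' (hQM (hNQ hn.1)) hm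
      refine ⟨x * x₁, X.mul_mem hx hx₁, y₁ * y, Y.mul_mem hy₁ hy, (y⁻¹ * n⁻¹ * y * n) * (n⁻¹ * m * n),
        M.mul_mem hc hm', ?_⟩
      have e : x * x₁ * (y₁ * y) * ((y⁻¹ * n⁻¹ * y * n) * (n⁻¹ * m * n)) =
          x * (x₁ * y₁) * (n⁻¹ * y * m * n) := by group
      rw [e, ← hn1]
      group
    let T : Subgroup G :=
      { carrier := {n | ∀ x ∈ X, ∀ y ∈ Y, ∀ m ∈ M,
          (∃ x' ∈ X, ∃ y' ∈ Y, ∃ m' ∈ M, x * y * m * n = x' * y' * m') ∧
          (∃ x' ∈ X, ∃ y' ∈ Y, ∃ m' ∈ M, x * y * m * n⁻¹ = x' * y' * m')}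
        mul_mem' := by
          intro n₁ n₂ h1 h2 x hx y hy m hm
          constructor
          · obtain ⟨x', hx', y', hy', m', hm', e⟩ := (h1 x hx y hy m hm).1
            obtain ⟨x'', hx'', y'', hy'', m'', hm'', e'⟩ := (h2 x' hx' y' hy' m' hm').1
            exact ⟨x'', hx'', y'', hy'', m'', hm'', by rw [← e', ← e]; group⟩
          · obtain ⟨x', hx', y', hy', m', hm', e⟩ := (h2 x hx y hy m hm).2
            obtain ⟨x'', hx'', y'', hy'', m'', hm'', e'⟩ := (h1 x' hx' y' hy' m' hm').2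
            exact ⟨x'', hx'', y'', hy'', m'', hm'', by rw [← e', ← e]; group⟩
        one_mem' := by
          intro x hx y hy m hm
          exact ⟨⟨x, hx, y, hy, m, hm, by simp⟩, ⟨x, hx, y, hy, m, hm, by simp⟩⟩
        inv_mem' := by
          intro n h x hx y hy m hm
          exact ⟨(h x hx y hy m hm).2, by rw [inv_inv]; exact (h x hx y hy m hm).1⟩ }
    have hcopN : (Nat.card A).Coprime (Nat.card N) := hcop.coprime_dvd_right (card_dvd_of_le hNQ)
    have hNT : N ≤ T := by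
      have h58 := Cfsg.Agent.S0058.result A N hAnc hAN hcopN
      rw [← h58]
      refine iSup₂_le ?_
      intro a ha n hn
      intro x hx y hy m hm
      exact ⟨hgen a ha.1 ha.2 n hn x hx y hy m hm, hgen a ha.1 ha.2 n⁻¹ (inv_mem hn) x hx y hy m hm⟩
    intro g hg
    obtain ⟨x, hx, y, hy, n, hn, rfl⟩ := hN g hg
    obtain ⟨x', hx', y', hy', m', hm', e⟩ := (hNT hn x hx y hy 1 M.one_mem).1
    exact ⟨x', hx', y', hy', m', hm', by rw [← e]; group⟩
  exact main _ Q rfl le_rfl le_normalizer hAQ (fun g hg => ⟨1, X.one_mem, 1, Y.one_mem, g, hg, by simp⟩)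

theorem card_le_of_isPGroup_le [Finite G] {q : ℕ} [hq : Fact q.Prime] {S U : Subgroup G} (hS : IsPGroup q S)
    (hSU : S ≤ U) : Nat.card S ≤ q ^ (Nat.card U).factorization q := by
  obtain ⟨j, hj⟩ := hS.exists_card_eq
  have h1 : q ^ j ∣ Nat.card U := hj ▸ card_dvd_of_le hSU
  have h2 : j ≤ (Nat.card U).factorization q :=
    (hq.out.pow_dvd_iff_le_factorization Nat.card_pos.ne').mp h1
  rw [hj]
  exact Nat.pow_le_pow_right hq.out.pos h2

theorem card_sylImg [Finite G] {q : ℕ} [hq : Fact q.Prime] {U : Subgroup G} (P : Sylow q U) :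
    Nat.card (sylImg P) = q ^ (Nat.card U).factorization q := by
  rw [card_map_of_injective U.subtype_injective]
  exact Sylow.card_eq_multiplicity P

theorem card_sylow_inf_centralizer [Finite G] (B U : Subgroup G) (hBU : B ≤ normalizer (U : Set G))
    (hcop : (Nat.card B).Coprime (Nat.card U)) (hsolv : Group.IsSolvable B ∨ Group.IsSolvable U) (q : ℕ)
    [hq : Fact q.Prime] (P : Sylow q U) (hP : B ≤ normalizer (sylImg P : Set G)) :
    Nat.card ↥(sylImg P ⊓ centralizer (B : Set G)) =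
      q ^ (Nat.card ↥(U ⊓ centralizer (B : Set G))).factorization q := by
  apply le_antisymm
  · exact card_le_of_isPGroup_le ((sylImg_isPGroup P).to_le inf_le_left) (inf_le_inf_right _ (sylImg_le P))
  obtain ⟨T⟩ : Nonempty (Sylow q ↥(U ⊓ centralizer (B : Set G))) := inferInstance
  have hT'U : sylImg T ≤ U := (sylImg_le T).trans inf_le_left
  have hT'C : sylImg T ≤ centralizer (B : Set G) := (sylImg_le T).trans inf_le_right
  have hBT : B ≤ normalizer (sylImg T : Set G) := by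
    apply le_normalizer_of_forall_conj_mem
    intro b hb t ht
    have := (mem_centralizer_iff.mp (hT'C ht)) b hb
    rw [this, mul_inv_cancel_right]
    exact ht
  obtain ⟨P', hTP', hP'⟩ := coprime_invariant_psubgroup_le B U hBU hcop hsolv q (sylImg T) hT'U
    (sylImg_isPGroup T) hBT
  obtain ⟨c, hc, hcP⟩ := coprime_invariant_sylow_conj B U hBU hcop hsolv q P' P hP' hP
  have h1 : sylImg P = MulAut.conj (c : G) • sylImg P' := by rw [← hcP, sylImg_conj_smul]
  have h2 : MulAut.conj (c : G) • sylImg T ≤ sylImg P ⊓ centralizer (B : Set G) := by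
    intro x hx
    rw [mem_conj_smul] at hx
    have hx1 : x ∈ sylImg P := by rw [h1, mem_conj_smul]; exact hTP' hx
    refine ⟨hx1, ?_⟩
    have := (centralizer (B : Set G)).mul_mem ((centralizer (B : Set G)).mul_mem hc (hT'C hx)) (inv_mem hc)
    simpa [mul_assoc] using this
  rw [← card_sylImg T, ← card_conj_smul (c : G) (sylImg T)]
  exact card_le_of_le h2

end Cfsg.Agent.Lib.Helper1
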