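import Mathlib
import Cfsg.Agent.Lib.Helper1.Fac1

set_option autoImplicit false

/-! Factorisations under coprime action of a noncyclic abelian group: main result. -/

namespace Cfsg.Agent.Lib.Helper1

open Subgroup Cfsg
open scoped commutatorElement Pointwise

variable {G : Type*} [Group G]

theorem le_normalizer_inf' {A U V : Subgroup G} (hU : A ≤ normalizer (U : Set G)) (hV : A ≤ normalizer (V : Set G)) :
    A ≤ normalizer ((U ⊓ V : Subgroup G) : Set G) := by
  apply le_normalizer_of_forall_conj_mem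
  intro a ha x hx
  exact ⟨conj_mem_of_mem_normalizer (hU ha) hx.1, conj_mem_of_mem_normalizer (hV ha) hx.2⟩

theorem eq_and_eq_of_mul_eq {a b c d : ℕ} (h : c * d ≤ a * b) (ha : a ≤ c) (hb : b ≤ d) (hc : 0 < c) (hd : 0 < d) :
    a = c ∧ b = d := by
  constructor
  · by_contra hne
    have hlt : a < c := lt_of_le_of_ne ha hne
    have : a * b < c * d := by
      calc a * b ≤ a * d := Nat.mul_le_mul_left a hb
        _ < c * d := Nat.mul_lt_mul_of_pos_right hlt hd
    omega
  · by_contra hne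
    have hlt : b < d := lt_of_le_of_ne hb hne
    have : a * b < c * d := by
      calc a * b ≤ c * b := Nat.mul_le_mul_right b ha
        _ < c * d := Nat.mul_lt_mul_of_pos_left hlt hc
    omega

set_option maxHeartbeats 1600000 in
theorem factor_prime [Finite G] (A K X Y : Subgroup G) [IsMulCommutative A] (hAnc : ¬ IsCyclic A)
    (hAsolv : Group.IsSolvable A) (hcopK : (Nat.card A).Coprime (Nat.card K))
    (hAK : A ≤ normalizer (K : Set G)) (hX : X ≤ K) (hY : Y ≤ K) (hAX : A ≤ normalizer (X : Set G))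
    (hAY : A ≤ normalizer (Y : Set G)) (hCX : K ⊓ centralizer (A : Set G) ≤ normalizer (X : Set G))
    (hfac : ∀ a ∈ A, a ≠ 1 → ((K ⊓ centralizer {a} : Subgroup G) : Set G) =
      ((X ⊓ centralizer {a} : Subgroup G) : Set G) * ((Y ⊓ centralizer {a} : Subgroup G) : Set G))
    (q : ℕ) [hq : Fact q.Prime] :
    (Nat.card K).factorization q + (Nat.card (X ⊓ Y : Subgroup G)).factorization q =
      (Nat.card X).factorization q + (Nat.card Y).factorization q := by
  have hqp := hq.out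
  have hcopU : ∀ U : Subgroup G, U ≤ K → (Nat.card A).Coprime (Nat.card U) :=
    fun U hU => hcopK.coprime_dvd_right (card_dvd_of_le hU)
  obtain ⟨PX, hPX⟩ := coprime_exists_invariant_sylow A X hAX (hcopU X hX) (Or.inl hAsolv) q
  obtain ⟨PY, hPY⟩ := coprime_exists_invariant_sylow A Y hAY (hcopU Y hY) (Or.inl hAsolv) q
  obtain ⟨P1, hX1, hP1⟩ := coprime_invariant_psubgroup_le A K hAK hcopK (Or.inl hAsolv) q (sylImg PX)
    ((sylImg_le PX).trans hX) (sylImg_isPGroup PX) hPX
  obtain ⟨P2, hY2, hP2⟩ := coprime_invariant_psubgroup_le A K hAK hcopK (Or.inl hAsolv) q (sylImg PY)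
    ((sylImg_le PY).trans hY) (sylImg_isPGroup PY) hPY
  obtain ⟨c, hc, hcP⟩ := coprime_invariant_sylow_conj A K hAK hcopK (Or.inl hAsolv) q P1 P2 hP1 hP2
  have hcX : (c : G) ∈ normalizer (X : Set G) := hCX ⟨c.2, hc⟩
  obtain ⟨PX', hPX'⟩ : ∃ PX' : Sylow q X, PX' = conjNormalizer (c : G) hcX • PX := ⟨_, rfl⟩
  have hPX'img : sylImg PX' = MulAut.conj (c : G) • sylImg PX := by
    rw [hPX', sylImg_conjNormalizer_smul]
  have hQ2 : sylImg P2 = MulAut.conj (c : G) • sylImg P1 := by rw [← hcP, sylImg_conj_smul]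
  obtain ⟨Q, hQ⟩ : ∃ Q : Subgroup G, Q = sylImg P2 := ⟨_, rfl⟩
  obtain ⟨QX, hQX⟩ : ∃ QX : Subgroup G, QX = sylImg PX' := ⟨_, rfl⟩
  obtain ⟨QY, hQY⟩ : ∃ QY : Subgroup G, QY = sylImg PY := ⟨_, rfl⟩
  have hQXQ : QX ≤ Q := by
    rw [hQX, hQ, hPX'img, hQ2]
    intro x hx
    rw [mem_conj_smul] at hx ⊢
    exact hX1 hx
  have hQYQ : QY ≤ Q := by rw [hQY, hQ]; exact hY2
  have hAQ : A ≤ normalizer (Q : Set G) := hQ ▸ hP2
  have hAQY : A ≤ normalizer (QY : Set G) := hQY ▸ hPY
  have hAQX' : A ≤ normalizer (sylImg PX' : Set G) := by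
    intro a ha
    rw [hPX'img, mem_normalizer_conj_smul]
    have h1 : (c : G)⁻¹ * a * c = a := by
      have := (mem_centralizer_iff.mp hc) a ha
      rw [mul_assoc, this, inv_mul_cancel_left]
    rw [h1]
    exact hPX ha
  have hAQX : A ≤ normalizer (QX : Set G) := hQX ▸ hAQX'
  have hQq : IsPGroup q Q := hQ ▸ sylImg_isPGroup P2
  have hQK : Q ≤ K := hQ ▸ sylImg_le P2
  have hQXX : QX ≤ X := hQX ▸ sylImg_le PX'
  have hQYY : QY ≤ Y := hQY ▸ sylImg_le PY
  have hcardQ : Nat.card Q = q ^ (Nat.card K).factorization q := hQ ▸ card_sylImg P2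
  have hcardQX : Nat.card QX = q ^ (Nat.card X).factorization q := hQX ▸ card_sylImg PX'
  have hcardQY : Nat.card QY = q ^ (Nat.card Y).factorization q := hQY ▸ card_sylImg PY
  -- centralisers
  have hW : ∀ a ∈ A, ∀ (U : Subgroup G) (hU : U ≤ K) (hAU : A ≤ normalizer (U : Set G)) (P : Sylow q U),
      A ≤ normalizer (sylImg P : Set G) →
      Nat.card ↥(sylImg P ⊓ centralizer {a}) = q ^ (Nat.card ↥(U ⊓ centralizer {a})).factorization q := by
    intro a ha U hU hAU P hP
    have hza : zpowers a ≤ A := zpowers_le.mpr ha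
    have h1 := card_sylow_inf_centralizer (zpowers a) U (hza.trans hAU)
      ((hcopU U hU).coprime_dvd_left (card_dvd_of_le hza)) (Or.inl inferInstance) q P (hza.trans hP)
    rw [centralizer_zpowers_eq] at h1
    exact h1
  have key : ∀ a ∈ A, a ≠ 1 →
      (∀ g ∈ Q ⊓ centralizer {a}, ∃ x ∈ QX, ∃ y ∈ QY, g = x * y) ∧
      Nat.card ↥((QX ⊓ QY) ⊓ centralizer {a}) = q ^ (Nat.card ↥((X ⊓ Y) ⊓ centralizer {a})).factorization q := by
    intro a ha ha1
    have hWX : Nat.card ↥(QX ⊓ centralizer {a}) = q ^ (Nat.card ↥(X ⊓ centralizer {a})).factorization q := by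
      rw [hQX]; exact hW a ha X hX hAX PX' hAQX'
    have hWY : Nat.card ↥(QY ⊓ centralizer {a}) = q ^ (Nat.card ↥(Y ⊓ centralizer {a})).factorization q := by
      rw [hQY]; exact hW a ha Y hY hAY PY hPY
    have h1 := Cfsg.Agent.Lib.Helper17.card_mul_set (X ⊓ centralizer {a}) (Y ⊓ centralizer {a})
    rw [← hfac a ha ha1, ← inf_inf_distrib_right] at h1
    have h1' : Nat.card ↥(K ⊓ centralizer {a}) * Nat.card ↥((X ⊓ Y) ⊓ centralizer {a}) =
        Nat.card ↥(X ⊓ centralizer {a}) * Nat.card ↥(Y ⊓ centralizer {a}) := h1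
    have hv : (Nat.card ↥(K ⊓ centralizer {a})).factorization q +
        (Nat.card ↥((X ⊓ Y) ⊓ centralizer {a})).factorization q =
        (Nat.card ↥(X ⊓ centralizer {a})).factorization q + (Nat.card ↥(Y ⊓ centralizer {a})).factorization q := by
      have := congrArg (fun n => n.factorization q) h1'
      beta_reduce at this
      rw [Nat.factorization_mul Nat.card_pos.ne' Nat.card_pos.ne',
        Nat.factorization_mul Nat.card_pos.ne' Nat.card_pos.ne'] at this
      simpa using this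
    have h2 := Cfsg.Agent.Lib.Helper17.card_mul_set (QX ⊓ centralizer {a}) (QY ⊓ centralizer {a})
    rw [← inf_inf_distrib_right, hWX, hWY, ← pow_add, ← hv, pow_add] at h2
    have hsub : ((QX ⊓ centralizer {a} : Subgroup G) : Set G) * ((QY ⊓ centralizer {a} : Subgroup G) : Set G) ⊆
        ((Q ⊓ centralizer {a} : Subgroup G) : Set G) := by
      rintro _ ⟨x, hx, y, hy, rfl⟩
      exact mul_mem (⟨hQXQ hx.1, hx.2⟩ : x ∈ Q ⊓ centralizer {a}) (⟨hQYQ hy.1, hy.2⟩ : y ∈ Q ⊓ centralizer {a})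
    have hle1 : Nat.card ↥(((QX ⊓ centralizer {a} : Subgroup G) : Set G) * ((QY ⊓ centralizer {a} : Subgroup G) : Set G))
        ≤ Nat.card ↥(Q ⊓ centralizer {a}) := by
      have := Set.ncard_le_ncard hsub (Set.toFinite _)
      rw [← Nat.card_coe_set_eq, ← Nat.card_coe_set_eq] at this
      exact this
    have hle2 : Nat.card ↥(Q ⊓ centralizer {a}) ≤ q ^ (Nat.card ↥(K ⊓ centralizer {a})).factorization q :=
      card_le_of_isPGroup_le (hQq.to_le inf_le_left) (inf_le_inf_right _ hQK)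
    have hle3 : Nat.card ↥((QX ⊓ QY) ⊓ centralizer {a}) ≤
        q ^ (Nat.card ↥((X ⊓ Y) ⊓ centralizer {a})).factorization q :=
      card_le_of_isPGroup_le (hQq.to_le ((inf_le_left.trans inf_le_left).trans hQXQ))
        (inf_le_inf_right _ (inf_le_inf hQXX hQYY))
    obtain ⟨e1, e2⟩ := eq_and_eq_of_mul_eq h2.ge (hle1.trans hle2) hle3 (pow_pos hqp.pos _) (pow_pos hqp.pos _)
    refine ⟨?_, e2⟩
    have hseteq : ((QX ⊓ centralizer {a} : Subgroup G) : Set G) * ((QY ⊓ centralizer {a} : Subgroup G) : Set G) =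
        ((Q ⊓ centralizer {a} : Subgroup G) : Set G) := by
      apply Set.eq_of_subset_of_ncard_le hsub _ (Set.toFinite _)
      rw [← Nat.card_coe_set_eq, ← Nat.card_coe_set_eq, e1]
      exact hle2
    intro g hg
    have hg' : g ∈ ((Q ⊓ centralizer {a} : Subgroup G) : Set G) := hg
    rw [← hseteq] at hg'
    obtain ⟨x, hx, y, hy, rfl⟩ := hg'
    exact ⟨x, hx.1, y, hy.1, rfl⟩
  -- the nilpotent case
  have hQfac := nilp_factor A Q QX QY hAnc hQq.isNilpotent hAQ (hcopU Q hQK) hQXQ hQYQ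
    (fun a ha ha1 => (key a ha ha1).1)
  have hQset : (QX : Set G) * (QY : Set G) = (Q : Set G) := by
    apply Set.Subset.antisymm
    · rintro _ ⟨x, hx, y, hy, rfl⟩
      exact mul_mem (hQXQ hx) (hQYQ hy)
    · intro g hg
      obtain ⟨x, hx, y, hy, rfl⟩ := hQfac g hg
      exact ⟨x, hx, y, hy, rfl⟩
  have h3 := Cfsg.Agent.Lib.Helper17.card_mul_set QX QY
  rw [hQset] at h3
  have h3' : Nat.card Q * Nat.card ↥(QX ⊓ QY) = Nat.card QX * Nat.card QY := h3
  -- `QX ⊓ QY` is a Sylow subgroup of `X ⊓ Y`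
  have hAD : A ≤ normalizer ((X ⊓ Y : Subgroup G) : Set G) := le_normalizer_inf' hAX hAY
  have hAR : A ≤ normalizer ((QX ⊓ QY : Subgroup G) : Set G) := le_normalizer_inf' hAQX hAQY
  have hDK : X ⊓ Y ≤ K := inf_le_left.trans hX
  obtain ⟨PD, hRPD, hPD⟩ := coprime_invariant_psubgroup_le A (X ⊓ Y) hAD (hcopU _ hDK) (Or.inl hAsolv) q
    (QX ⊓ QY) (inf_le_inf hQXX hQYY) (hQq.to_le (inf_le_left.trans hQXQ)) hAR
  have hPDle : sylImg PD ≤ QX ⊓ QY := by
    have h58 := Cfsg.Agent.S0058.result A (sylImg PD) hAnc hPD (hcopU _ ((sylImg_le PD).trans hDK))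
    rw [← h58]
    refine iSup₂_le ?_
    intro a ha
    have h4 : (QX ⊓ QY) ⊓ centralizer {a} ≤ sylImg PD ⊓ centralizer {a} := inf_le_inf_right _ hRPD
    have h5 : Nat.card ↥(sylImg PD ⊓ centralizer {a}) ≤ Nat.card ↥((QX ⊓ QY) ⊓ centralizer {a}) := by
      rw [(key a ha.1 ha.2).2]
      exact card_le_of_isPGroup_le ((sylImg_isPGroup PD).to_le inf_le_left) (inf_le_inf_right _ (sylImg_le PD))
    rw [← eq_of_le_of_card_ge h4 h5]
    exact inf_le_left
  have hReq : QX ⊓ QY = sylImg PD := le_antisymm hRPD hPDle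
  have hcardR : Nat.card ↥(QX ⊓ QY) = q ^ (Nat.card ↥(X ⊓ Y)).factorization q := by
    rw [hReq]; exact card_sylImg PD
  rw [hcardQ, hcardR, hcardQX, hcardQY, ← pow_add, ← pow_add] at h3'
  exact Nat.pow_right_injective hqp.two_le h3'

theorem factor_main [Finite G] (p : ℕ) [hp : Fact p.Prime] (A K X Y : Subgroup G)
    (hA : Cfsg.IsElementaryAbelian p A) (hA2 : p ^ 2 ≤ Nat.card ↥A) (hK : ¬ p ∣ Nat.card ↥K)
    (hAK : A ≤ Subgroup.normalizer (K : Set G)) (hX : X ≤ K) (hY : Y ≤ K)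
    (hAX : A ≤ Subgroup.normalizer (X : Set G)) (hAY : A ≤ Subgroup.normalizer (Y : Set G))
    (hCX : K ⊓ Subgroup.centralizer (A : Set G) ≤ Subgroup.normalizer (X : Set G))
    (hfac : ∀ a ∈ A, a ≠ 1 → ((K ⊓ Subgroup.centralizer {a} : Subgroup G) : Set G) =
      ((X ⊓ Subgroup.centralizer {a} : Subgroup G) : Set G) * ((Y ⊓ Subgroup.centralizer {a} : Subgroup G) : Set G)) :
    (K : Set G) = (X : Set G) * (Y : Set G) := by
  haveI : IsMulCommutative A := hA.1
  have hAp : IsPGroup p A := by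
    intro a
    exact ⟨1, by rw [pow_one]; exact Subtype.ext (by simpa using hA.2 a a.2)⟩
  have hAnc : ¬ IsCyclic A := by
    intro hcyc
    obtain ⟨g, hg⟩ := hcyc.exists_generator
    have h1 : orderOf g = Nat.card A := orderOf_eq_card_of_forall_mem_zpowers hg
    have h2 : orderOf g ∣ p := orderOf_dvd_of_pow_eq_one (Subtype.ext (by simpa using hA.2 g g.2))
    have h3 := Nat.le_of_dvd hp.out.pos h2
    rw [h1] at h3
    have : p < p ^ 2 := by nlinarith [hp.out.two_le]
    omega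
  have hAsolv := solvable_of_isPGroup hAp
  have hcopK : (Nat.card A).Coprime (Nat.card K) := by
    obtain ⟨n, hn⟩ := hAp.exists_card_eq
    rw [hn]
    exact Nat.Coprime.pow_left n ((Nat.Prime.coprime_iff_not_dvd hp.out).mpr hK)
  have hcard : Nat.card K * Nat.card (X ⊓ Y : Subgroup G) = Nat.card X * Nat.card Y := by
    apply Nat.eq_of_factorization_eq (mul_ne_zero Nat.card_pos.ne' Nat.card_pos.ne')
      (mul_ne_zero Nat.card_pos.ne' Nat.card_pos.ne')
    intro q
    by_cases hq : q.Prime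
    · haveI := Fact.mk hq
      rw [Nat.factorization_mul Nat.card_pos.ne' Nat.card_pos.ne',
        Nat.factorization_mul Nat.card_pos.ne' Nat.card_pos.ne']
      simpa using factor_prime A K X Y hAnc hAsolv hcopK hAK hX hY hAX hAY hCX hfac q
    · rw [Nat.factorization_eq_zero_of_not_prime _ hq, Nat.factorization_eq_zero_of_not_prime _ hq]
  have h1 := Cfsg.Agent.Lib.Helper17.card_mul_set X Y
  rw [← hcard] at h1
  have h2 : Nat.card ((X : Set G) * (Y : Set G) : Set G) = Nat.card K :=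
    Nat.eq_of_mul_eq_mul_right Nat.card_pos h1
  have hsub : (X : Set G) * (Y : Set G) ⊆ (K : Set G) := by
    rintro _ ⟨x, hx, y, hy, rfl⟩
    exact mul_mem (hX hx) (hY hy)
  symm
  apply Set.eq_of_subset_of_ncard_le hsub _ (Set.toFinite _)
  rw [← Nat.card_coe_set_eq, ← Nat.card_coe_set_eq, h2]
  exact le_rfl

end Cfsg.Agent.Lib.Helper1
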