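import Cfsg.Agent.Lib.Helper1.ThreeSolv
import Cfsg.Agent.Lib.Helper1.SylowSystem
import Cfsg.Agent.S0144
set_option autoImplicit false
open Pointwise

namespace Cfsg.Agent.Lib.Helper1

open Subgroup MulAction

universe u

variable {G : Type u} [Group G]

/-- the hypothesis "there is a `p`-complement for every prime `p`" -/
def HasPComplements (G : Type u) [Group G] : Prop :=
  ∀ p : ℕ, p.Prime → ∃ H : Subgroup G, H.index = p ^ (Nat.card G).factorization p

theorem HasPComplements.subgroup [Finite G] (h : HasPComplements G) {p : ℕ} (hp : p.Prime)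
    {H : Subgroup G} (hH : H.index = p ^ (Nat.card G).factorization p) : HasPComplements H := by
  intro s hs
  have hcard := H.card_mul_index
  have hH0 : Nat.card H ≠ 0 := Nat.card_pos.ne'
  have hfac : (Nat.card G).factorization =
      (Nat.card H).factorization + (p ^ (Nat.card G).factorization p).factorization := by
    rw [← Nat.factorization_mul hH0 (pow_ne_zero _ hp.ne_zero), ← hH, hcard]
  by_cases hsp : s = p
  · subst hsp
    have h1 := congrArg (fun f => f s) hfac
    simp only [Finsupp.add_apply, hs.factorization_pow, Finsupp.single_eq_same] at h1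
    have h2 : (Nat.card H).factorization s = 0 := by omega
    exact ⟨⊤, by rw [h2, pow_zero, index_top]⟩
  · obtain ⟨K, hK⟩ := h s hs
    have h1 := congrArg (fun f => f s) hfac
    simp only [Finsupp.add_apply, hp.factorization_pow] at h1
    rw [Finsupp.single_eq_of_ne (by exact hsp), add_zero] at h1
    have hcop : H.index.Coprime K.index := by
      rw [hH, hK]
      exact Nat.Coprime.pow _ _ ((Nat.coprime_primes hp hs).2 (Ne.symm hsp))
    refine ⟨K.subgroupOf H, ?_⟩
    have h2 := index_inf_of_coprime H K hcop
    have h3 := relIndex_mul_index (inf_le_left : H ⊓ K ≤ H)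
    rw [h2, inf_comm, inf_relIndex_right, mul_comm] at h3
    have h4 : K.relIndex H = K.index :=
      Nat.eq_of_mul_eq_mul_left (Nat.pos_of_ne_zero index_ne_zero_of_finite) h3
    rw [← h1, ← hK, ← h4]
    rfl

theorem hall_converse_aux : ∀ (n : ℕ) (G : Type u) [Group G] [Finite G], Nat.card G = n →
    HasPComplements G → Group.IsSolvable G := by
  intro n
  induction n using Nat.strong_induction_on with
  | _ n ih =>
  intro G _ _ hn h
  have hn0 : Nat.card G ≠ 0 := Nat.card_pos.ne'
  have hprod : Nat.card G = ∏ p ∈ (Nat.card G).primeFactors, p ^ (Nat.card G).factorization p := by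
    conv_lhs => rw [← Nat.prod_factorization_pow_eq_self hn0]
    rw [Nat.prod_factorization_eq_prod_primeFactors]
  by_cases h3 : 2 < (Nat.card G).primeFactors.card
  · rw [Finset.two_lt_card_iff] at h3
    obtain ⟨p, q, r, hp, hq, hr, hpq, hpr, hqr⟩ := h3
    have hpp := Nat.prime_of_mem_primeFactors hp
    have hqp := Nat.prime_of_mem_primeFactors hq
    have hrp := Nat.prime_of_mem_primeFactors hr
    obtain ⟨Hp, hHp⟩ := h p hpp
    obtain ⟨Hq, hHq⟩ := h q hqp
    obtain ⟨Hr, hHr⟩ := h r hrp
    have solv : ∀ (s : ℕ) (hs : s ∈ (Nat.card G).primeFactors) (H : Subgroup G),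
        H.index = s ^ (Nat.card G).factorization s → Group.IsSolvable H := by
      intro s hs H hH
      have hsp := Nat.prime_of_mem_primeFactors hs
      apply ih (Nat.card H) _ H rfl (h.subgroup hsp hH)
      rw [← hn]
      apply card_lt_of_ne_top
      intro htop
      rw [htop, index_top] at hH
      have hpos : 0 < (Nat.card G).factorization s :=
        hsp.factorization_pos_of_dvd hn0 (Nat.dvd_of_mem_primeFactors hs)
      have := Nat.one_lt_pow hpos.ne' hsp.one_lt
      omega
    have cop : ∀ {s t : ℕ} (_ : s.Prime) (_ : t.Prime) (_ : s ≠ t) (a b : ℕ),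
        (s ^ a).Coprime (t ^ b) := fun hs ht hst a b =>
      Nat.Coprime.pow _ _ ((Nat.coprime_primes hs ht).2 hst)
    exact three_solvable_aux _ G rfl Hp Hq Hr (solv p hp Hp hHp) (solv q hq Hq hHq)
      (solv r hr Hr hHr)
      (exists_mul_of_coprime_index Hp Hq (by rw [hHp, hHq]; exact cop hpp hqp hpq _ _))
      (exists_mul_of_coprime_index Hp Hr (by rw [hHp, hHr]; exact cop hpp hrp hpr _ _))
      (by rw [hHq, hHr]; exact cop hqp hrp hqr _ _)
  · have hle : (Nat.card G).primeFactors.card ≤ 2 := by omega
    interval_cases hc : (Nat.card G).primeFactors.card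
    · rw [Finset.card_eq_zero] at hc
      rw [hc, Finset.prod_empty] at hprod
      exact Cfsg.Agent.S0144.result 2 2 0 0 Nat.prime_two Nat.prime_two (by simpa using hprod)
    · rw [Finset.card_eq_one] at hc
      obtain ⟨p, hp⟩ := hc
      have hpp : p.Prime := Nat.prime_of_mem_primeFactors (hp ▸ Finset.mem_singleton_self p)
      rw [hp, Finset.prod_singleton] at hprod
      exact Cfsg.Agent.S0144.result p p ((Nat.card G).factorization p) 0 hpp hpp
        (by rw [pow_zero, mul_one]; exact hprod)
    · rw [Finset.card_eq_two] at hc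
      obtain ⟨p, q, hpq, hs⟩ := hc
      have hpp : p.Prime := Nat.prime_of_mem_primeFactors (n := Nat.card G) (by rw [hs]; simp)
      have hqp : q.Prime := Nat.prime_of_mem_primeFactors (n := Nat.card G) (by rw [hs]; simp)
      rw [hs, Finset.prod_pair hpq] at hprod
      exact Cfsg.Agent.S0144.result p q _ _ hpp hqp hprod

end Cfsg.Agent.Lib.Helper1
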