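import Mathlib
import Cfsg.Agent.Lib.Helper1.Coprime
import Cfsg.Agent.Lib.Helper1.PGrp
import Cfsg.Agent.Lib.Helper1.FFT0
import Cfsg.Agent.Lib.Helper9.Generation
import Cfsg.Agent.Lib.Helper12.Conj
import Cfsg.Agent.Lib.Helper16.Syl
import Cfsg.Agent.Lib.Helper16.Comm
import Cfsg.Agent.Lib.Helper21.TwoClosed

set_option autoImplicit false
set_option linter.unusedSectionVars false

/-! The `L`-lemma for `p`-soluble groups. -/

namespace Cfsg.Agent.Lib.Helper1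

open Subgroup Cfsg
open Cfsg.Agent.Lib.Helper12 (cj mem_cj conj_mem_cj card_cj cj_eq_of_mem_normalizer
  mem_normalizer_iff_cj cj_mul cj_mono cj_sup cj_eq_of_mem)
open Cfsg.Agent.Lib.Helper16 (SylIn pRes pRes_le pRes_mono pRes_sup_le pRes_sup_sylIn exists_sylIn_ge
  exists_mul_of_mem_sup pCoreOf_le pCoreOf_isPGroup le_pCoreOf le_normalizer_pCoreOf)
open scoped commutatorElement

variable {M : Type*} [Group M] [Finite M] {p : ℕ} [Fact p.Prime]

/-- elements centralising `B` modulo the normal subgroup `P`. -/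
def centMod (P B : Subgroup M) [hP : P.Normal] : Subgroup M where
  carrier := {g | ∀ b ∈ B, ⁅g, b⁆ ∈ P}
  one_mem' := fun b _ => by
    have : ⁅(1 : M), b⁆ = 1 := by rw [commutatorElement_def]; group
    rw [this]; exact P.one_mem
  mul_mem' := fun {g h} hg hh b hb => by
    have : ⁅g * h, b⁆ = g * ⁅h, b⁆ * g⁻¹ * ⁅g, b⁆ := by simp only [commutatorElement_def]; group
    rw [this]; exact P.mul_mem (hP.conj_mem _ (hh b hb) g) (hg b hb)
  inv_mem' := fun {g} hg b hb => by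
    have : ⁅g⁻¹, b⁆ = g⁻¹ * (⁅g, b⁆)⁻¹ * g⁻¹⁻¹ := by simp only [commutatorElement_def]; group
    rw [this]; exact hP.conj_mem _ (P.inv_mem (hg b hb)) g⁻¹

theorem mem_centMod {P B : Subgroup M} [P.Normal] {g : M} :
    g ∈ centMod P B ↔ ∀ b ∈ B, ⁅g, b⁆ ∈ P := Iff.rfl

structure LCtx (p : ℕ) (P X A B : Subgroup M) : Prop where
  hPX : P ≤ X
  hXP : ∀ R : Subgroup M, R ≤ X → IsPGroup p R → R ≤ P
  hA : IsPGroup p A
  hAA : ⁅A, A⁆ ≤ P
  hBA : B ≤ A
  hBn : A ≤ normalizer (B : Set M)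
  hidx : B.relIndex A = p

namespace LCtx

variable {P X A B : Subgroup M} [hPn : P.Normal] [hXn : X.Normal]

theorem A_le_centMod (c : LCtx p P X A B) : A ≤ centMod P B := fun _ ha b hb =>
  c.hAA (commutator_mem_commutator ha (c.hBA hb))

theorem A_le_normalizer (c : LCtx p P X A B) : A ≤ normalizer ((X ⊓ centMod P B : Subgroup M) : Set M) := by
  apply le_normalizer_of_forall_conj_mem
  intro a ha g hg
  exact ⟨hXn.conj_mem _ hg.1 a, (centMod P B).mul_mem ((centMod P B).mul_mem (c.A_le_centMod ha) hg.2)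
    ((centMod P B).inv_mem (c.A_le_centMod ha))⟩

theorem cj_le (c : LCtx p P X A B) {x : M} (hx : x ∈ X ⊓ centMod P B) :
    cj x A ≤ (X ⊓ centMod P B) ⊔ A := by
  rintro _ ⟨a, ha, rfl⟩
  have e : (MulAut.conj x).toMonoidHom a = (x * (a * x⁻¹ * a⁻¹)) * a := by
    simp [MulAut.conj_apply, mul_assoc]
  rw [e]
  exact mul_mem (mem_sup_left (mul_mem hx
    (conj_mem_of_mem_normalizer (c.A_le_normalizer ha) (inv_mem hx)))) (mem_sup_right ha)

theorem L_le (c : LCtx p P X A B) {x : M} (hx : x ∈ X ⊓ centMod P B) :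
    A ⊔ cj x A ≤ (X ⊓ centMod P B) ⊔ A := sup_le le_sup_right (c.cj_le hx)

theorem pRes_le_X1 (c : LCtx p P X A B) {x : M} (hx : x ∈ X ⊓ centMod P B) :
    pRes p (A ⊔ cj x A) ≤ X ⊓ centMod P B :=
  (pRes_mono (c.L_le hx)).trans (pRes_sup_le c.hA c.A_le_normalizer)

theorem le_normalizer_inf_P (L : Subgroup M) : L ≤ normalizer ((L ⊓ P : Subgroup M) : Set M) := by
  apply le_normalizer_of_forall_conj_mem
  intro l hl y hy
  exact ⟨L.mul_mem (L.mul_mem hl hy.1) (L.inv_mem hl), hPn.conj_mem _ hy.2 l⟩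

/-- `A'(L ∩ P)` is a Sylow subgroup of `L`. -/
theorem sylIn_of (c : LCtx p P X A B) {A' L X₁ : Subgroup M} (hX₁ : X₁ ≤ X) (hA' : IsPGroup p A')
    (hA'L : A' ≤ L) (hL : L ≤ X₁ ⊔ A') (hn : A' ≤ normalizer (X₁ : Set M)) (hPp : IsPGroup p P) :
    SylIn p (A' ⊔ (L ⊓ P)) L := by
  have hp1 : IsPGroup p ↥(A' ⊔ (L ⊓ P)) :=
    IsPGroup.to_sup_of_normal_right' hA' (hPp.to_le inf_le_right)
      (hA'L.trans (le_normalizer_inf_P L))
  obtain ⟨T, hT, hle⟩ := exists_sylIn_ge hp1 (sup_le hA'L inf_le_left)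
  have hTle : T ≤ A' ⊔ (L ⊓ P) := by
    intro t ht
    obtain ⟨g, hg, a, ha, rfl⟩ := exists_mul_of_mem_sup hn (hL (hT.le ht))
    have haT : a ∈ T := hle (mem_sup_left ha)
    have hgT : g ∈ T := by
      have := T.mul_mem ht (T.inv_mem haT)
      simpa using this
    have hgP : g ∈ P :=
      c.hXP (T ⊓ X₁) (inf_le_right.trans hX₁) (hT.isPGroup.to_le inf_le_left) ⟨hgT, hg⟩
    exact mul_mem (mem_sup_right ⟨hT.le hgT, hgP⟩) (mem_sup_left ha)
  rwa [le_antisymm hTle hle] at hT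

theorem exists_good (c : LCtx p P X A B) (hPp : IsPGroup p P) {x₀ : M} (hx₀ : x₀ ∈ X ⊓ centMod P B)
    (hx₀A : ¬ cj x₀ A ≤ A ⊔ P) :
    ∃ d ∈ X ⊓ centMod P B, ¬ cj d A ≤ A ⊔ P ∧ d ∈ pRes p (A ⊔ cj d A) := by
  obtain ⟨x, hx, hmin⟩ := (Set.toFinite {x : M | x ∈ X ⊓ centMod P B ∧ ¬ cj x A ≤ A ⊔ P}).exists_minimalFor
    (fun x => Nat.card ↥(A ⊔ cj x A)) _ ⟨x₀, hx₀, hx₀A⟩
  obtain ⟨hx1, hx2⟩ := hx
  obtain ⟨L, hL⟩ : ∃ L, L = A ⊔ cj x A := ⟨_, rfl⟩
  have hLle : L ≤ (X ⊓ centMod P B) ⊔ A := hL ▸ c.L_le hx1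
  have hAL : A ≤ L := hL ▸ le_sup_left
  have hAxL : cj x A ≤ L := hL ▸ le_sup_right
  have hT₁ : SylIn p (A ⊔ (L ⊓ P)) L := c.sylIn_of inf_le_left c.hA hAL hLle c.A_le_normalizer hPp
  have hxn : x ∈ normalizer ((X ⊓ centMod P B : Subgroup M) : Set M) := le_normalizer hx1
  have hsup : (X ⊓ centMod P B) ⊔ cj x A = (X ⊓ centMod P B) ⊔ A := by
    have h1 : cj x ((X ⊓ centMod P B) ⊔ A) = (X ⊓ centMod P B) ⊔ A :=
      cj_eq_of_mem (mem_sup_left hx1)
    rw [cj_sup, cj_eq_of_mem_normalizer hxn] at h1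
    exact h1
  have hT₂ : SylIn p (cj x A ⊔ (L ⊓ P)) L := by
    refine c.sylIn_of inf_le_left (c.hA.map _) hAxL (hsup ▸ hLle) ?_ hPp
    have := cj_mono (g := x) c.A_le_normalizer
    rwa [← Cfsg.Agent.Lib.Helper12.normalizer_cj, cj_eq_of_mem_normalizer hxn] at this
  obtain ⟨l, hl, hconj⟩ := hT₁.exists_conj hT₂
  have hl' : l ∈ pRes p L ⊔ (A ⊔ (L ⊓ P)) := by rw [pRes_sup_sylIn hT₁]; exact hl
  obtain ⟨d, hd, t, ht, rfl⟩ := exists_mul_of_mem_sup
    (hT₁.le.trans (le_normalizer.trans (Cfsg.Agent.Lib.Helper16.normalizer_le_normalizer_pRes L))) hl'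
  have hconj' : cj x A ⊔ (L ⊓ P) = cj d (A ⊔ (L ⊓ P)) := by
    rw [hconj]
    change cj (d * t) _ = _
    rw [cj_mul, cj_eq_of_mem ht]
  have hdL : d ∈ L := pRes_le L hd
  have hdX : d ∈ X ⊓ centMod P B := by
    have := c.pRes_le_X1 hx1
    rw [← hL] at this
    exact this hd
  have hdQ : cj d (L ⊓ P) = L ⊓ P := cj_eq_of_mem_normalizer (le_normalizer_inf_P L hdL)
  have hdA : ¬ cj d A ≤ A ⊔ P := by
    intro h
    apply hx2
    calc cj x A ≤ cj x A ⊔ (L ⊓ P) := le_sup_left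
      _ = cj d A ⊔ (L ⊓ P) := by rw [hconj', cj_sup, hdQ]
      _ ≤ A ⊔ P := sup_le h (inf_le_right.trans le_sup_right)
  have hLd : A ⊔ cj d A ≤ L := by
    refine sup_le hAL ?_
    have := cj_mono (g := d) hAL
    rwa [cj_eq_of_mem hdL] at this
  have hcard := hmin ⟨hdX, hdA⟩ (by
    change Nat.card ↥(A ⊔ cj d A) ≤ Nat.card ↥(A ⊔ cj x A)
    rw [← hL]; exact card_le_of_le hLd)
  have hEq : A ⊔ cj d A = L := eq_of_le_of_card_ge hLd (by rw [hL]; exact hcard)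
  exact ⟨d, hdX, hdA, by rw [hEq]; exact hd⟩

theorem props (c : LCtx p P X A B) (hPp : IsPGroup p P) {d : M} (hdX : d ∈ X ⊓ centMod P B)
    (hdA : ¬ cj d A ≤ A ⊔ P) (hd : d ∈ pRes p (A ⊔ cj d A)) :
    pRes p (A ⊔ cj d A) ≤ X ∧ ⁅pRes p (A ⊔ cj d A), A⁆ = pRes p (A ⊔ cj d A) ∧
      (A ⊓ pCoreOf p (A ⊔ cj d A)).relIndex A = p ∧
      ⁅A ⊓ pCoreOf p (A ⊔ cj d A), A ⊔ cj d A⁆ ≤ P := by
  obtain ⟨L, hL⟩ : ∃ L, L = A ⊔ cj d A := ⟨_, rfl⟩
  have hO := c.pRes_le_X1 hdX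
  have hLle := c.L_le hdX
  rw [← hL] at hd hO hLle ⊢
  have hAL : A ≤ L := hL ▸ le_sup_left
  have hdL : d ∈ L := pRes_le L hd
  have hLn : L ≤ normalizer ((pRes p L : Subgroup M) : Set M) :=
    le_normalizer.trans (Cfsg.Agent.Lib.Helper16.normalizer_le_normalizer_pRes L)
  have hLC : L ≤ centMod P B := hLle.trans (sup_le inf_le_right c.A_le_centMod)
  have hBL : B ≤ L := c.hBA.trans hAL
  refine ⟨hO.trans inf_le_left, ?_, ?_⟩
  · -- `[O, A] = O`
    apply le_antisymm (commutator_le_of_le_normalizer (hAL.trans hLn))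
    have hRn : A ≤ normalizer ((⁅pRes p L, A⁆ : Subgroup M) : Set M) :=
      Cfsg.Agent.Lib.Helper16.le_normalizer_commutator_right _ _
    have h1 : L ≤ ⁅pRes p L, A⁆ ⊔ A := by
      refine hL.le.trans (sup_le le_sup_right ?_)
      rintro _ ⟨a, ha, rfl⟩
      have e : (MulAut.conj d).toMonoidHom a = ⁅d, a⁆ * a := by
        simp [MulAut.conj_apply, commutatorElement_def]
      rw [e]
      exact mul_mem (mem_sup_left (commutator_mem_commutator hd ha)) (mem_sup_right ha)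
    exact (pRes_mono h1).trans (pRes_sup_le c.hA hRn)
  · -- the core
    have hQn := le_normalizer_inf_P (P := P) L
    have hN : B ⊔ (L ⊓ P) ≤ pCoreOf p L := by
      apply le_pCoreOf (sup_le hBL inf_le_left)
      · apply le_normalizer_of_forall_conj_mem
        intro l hl y hy
        have h2 : cj l (B ⊔ (L ⊓ P)) ≤ B ⊔ (L ⊓ P) := by
          rw [cj_sup, cj_eq_of_mem_normalizer (hQn hl)]
          refine sup_le ?_ le_sup_right
          rintro _ ⟨b, hb, rfl⟩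
          have e : (MulAut.conj l).toMonoidHom b = ⁅l, b⁆ * b := by
            simp [MulAut.conj_apply, commutatorElement_def]
          rw [e]
          refine mul_mem (mem_sup_right ⟨?_, hLC hl b hb⟩) (mem_sup_left hb)
          exact L.mul_mem (L.mul_mem (L.mul_mem hl (hBL hb)) (L.inv_mem hl)) (L.inv_mem (hBL hb))
        exact h2 (conj_mem_cj hy)
      · exact IsPGroup.to_sup_of_normal_right' (c.hA.to_le c.hBA) (hPp.to_le inf_le_right)
          (hBL.trans hQn)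
    have hBC : B ≤ A ⊓ pCoreOf p L := le_inf c.hBA (le_sup_left.trans hN)
    have hne : ¬ A ≤ A ⊓ pCoreOf p L := by
      intro h
      have hA1 : A ≤ pCoreOf p L := h.trans inf_le_right
      have hA2 : cj d A ≤ pCoreOf p L := by
        have := cj_mono (g := d) hA1
        rwa [cj_eq_of_mem_normalizer (le_normalizer_pCoreOf L hdL)] at this
      have hLp : IsPGroup p L := (pCoreOf_isPGroup L).to_le (by rw [hL]; rw [hL] at hA1 hA2; exact sup_le hA1 hA2)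
      have hT₁ : SylIn p (A ⊔ (L ⊓ P)) L :=
        c.sylIn_of inf_le_left c.hA hAL hLle c.A_le_normalizer hPp
      have := hT₁.eq_of_le hLp le_rfl hT₁.le
      apply hdA
      calc cj d A ≤ L := hL ▸ le_sup_right
        _ = A ⊔ (L ⊓ P) := this.symm
        _ ≤ A ⊔ P := sup_le_sup_left inf_le_right _
    have hmul := relIndex_mul_relIndex B (A ⊓ pCoreOf p L) A hBC inf_le_left
    rw [c.hidx] at hmul
    have hp : p.Prime := Fact.out
    have h1 : (A ⊓ pCoreOf p L).relIndex A ≠ 1 := by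
      intro h; exact hne (relIndex_eq_one.mp h)
    have h2 : (A ⊓ pCoreOf p L).relIndex A = p :=
      ((Nat.dvd_prime hp).mp ⟨_, by rw [mul_comm]; exact hmul.symm⟩).resolve_left h1
    refine ⟨h2, ?_⟩
    have h3 : B.relIndex (A ⊓ pCoreOf p L) = 1 := by
      rw [h2] at hmul
      exact Nat.eq_of_mul_eq_mul_right hp.pos (by rw [hmul, one_mul])
    have h4 : A ⊓ pCoreOf p L ≤ B := relIndex_eq_one.mp h3
    rw [commutator_le]
    intro b hb l hl
    have e : ⁅b, l⁆ = (⁅l, b⁆)⁻¹ := by simp only [commutatorElement_def]; group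
    rw [e]
    exact P.inv_mem (hLC hl b (h4 hb))

end LCtx

theorem llemma (hM : IsPSolvable p M) (A : Subgroup M) (hA : IsPGroup p A)
    (hΦ : (frattini ↥A).map A.subtype ≤ pCore p M) (hnot : ¬ A ≤ pCore p M) :
    ∃ x ∈ (pPrimeCore p (M ⧸ pCore p M)).comap (QuotientGroup.mk' (pCore p M)),
      x ∈ pRes p (A ⊔ cj x A) ∧
      pRes p (A ⊔ cj x A) ≤ (pPrimeCore p (M ⧸ pCore p M)).comap (QuotientGroup.mk' (pCore p M)) ∧
      ⁅pRes p (A ⊔ cj x A), A⁆ = pRes p (A ⊔ cj x A) ∧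
      (A ⊓ pCoreOf p (A ⊔ cj x A)).relIndex A = p ∧
      ⁅A ⊓ pCoreOf p (A ⊔ cj x A), A ⊔ cj x A⁆ ≤ pCore p M := by
  have hp : p.Prime := Fact.out
  obtain ⟨π, hπ⟩ : ∃ π : M →* M ⧸ pCore p M, π = QuotientGroup.mk' (pCore p M) := ⟨_, rfl⟩
  obtain ⟨F, hF⟩ : ∃ F, F = pPrimeCore p (M ⧸ pCore p M) := ⟨_, rfl⟩
  rw [← hπ, ← hF]
  have hπs : Function.Surjective π := hπ ▸ QuotientGroup.mk'_surjective _
  have hPp : IsPGroup p (pCore p M) := pCore_isPGroup p
  have hFn : F.Normal := hF ▸ inferInstance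
  have hFc : (Nat.card F).Coprime p := hF ▸ (pPrimeCore_spec p).2
  have hmemP : ∀ g, π g = 1 ↔ g ∈ pCore p M := fun g => by
    rw [hπ]; exact QuotientGroup.eq_one_iff g
  have hfr := pgroup_frattini (G := ↥A) hA
  have hAA : ⁅A, A⁆ ≤ pCore p M := by
    rw [commutator_le]
    intro a ha b hb
    apply hΦ
    refine ⟨⁅(⟨a, ha⟩ : ↥A), ⟨b, hb⟩⁆, hfr.1 ?_, rfl⟩
    rw [commutator_def]
    exact commutator_mem_commutator (mem_top _) (mem_top _)
  have hAp : ∀ a ∈ A, a ^ p ∈ pCore p M := by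
    intro a ha
    apply hΦ
    exact ⟨(⟨a, ha⟩ : ↥A) ^ p, hfr.2 _, rfl⟩
  have hcomm : ∀ a ∈ A, ∀ b ∈ A, π a * π b = π b * π a := by
    intro a ha b hb
    have h1 : π ⁅a, b⁆ = 1 := (hmemP _).mpr (hAA (commutator_mem_commutator ha hb))
    rw [commutatorElement_def, map_mul, map_mul, map_mul, map_inv, map_inv] at h1
    calc π a * π b = (π a * π b * (π a)⁻¹ * (π b)⁻¹) * (π b * π a) := by group
      _ = π b * π a := by rw [h1, one_mul]
  have hĀ : IsElementaryAbelian p (A.map π) := by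
    refine ⟨(Cfsg.Agent.Lib.Helper4.isMulCommutative_iff _).mpr ?_, ?_⟩
    · rintro _ ⟨a, ha, rfl⟩ _ ⟨b, hb, rfl⟩
      exact hcomm a ha b hb
    · rintro _ ⟨a, ha, rfl⟩
      rw [← map_pow]
      exact (hmemP _).mpr (hAp a ha)
  have hĀp : IsPGroup p (A.map π) := hA.map π
  have hĀne : A.map π ≠ ⊥ := by
    intro h
    apply hnot
    intro a ha
    rw [← hmemP]
    have : π a ∈ A.map π := mem_map_of_mem π ha
    rwa [h, mem_bot] at this
  obtain ⟨n, hn⟩ := IsPGroup.iff_card.mp hĀp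
  have hn0 : n ≠ 0 := by
    rintro rfl
    rw [pow_zero] at hn
    exact hĀne ((card_eq_one).mp hn)
  have hcard : p ≤ Nat.card ↥(A.map π) := by
    rw [hn]
    calc p = p ^ 1 := (pow_one p).symm
      _ ≤ p ^ n := Nat.pow_le_pow_right hp.pos (Nat.one_le_iff_ne_zero.mpr hn0)
  have hdisj : A.map π ⊓ F = ⊥ := by
    apply (disjoint_of_coprime_card _).eq_bot
    rw [hn]
    exact (Nat.Coprime.pow_left n hFc.symm)
  have hFnd : ¬ p ∣ Nat.card ↥F := fun h => by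
    have := Nat.Coprime.eq_one_of_dvd hFc.symm h
    exact hp.one_lt.ne' this
  have hnorm : A.map π ≤ normalizer (F : Set (M ⧸ pCore p M)) := by
    rw [normalizer_eq_top]; exact le_top
  have hHH : centralizer (F : Set (M ⧸ pCore p M)) ≤ F := by
    rw [hF]
    exact centralizer_pPrimeCore_le_of_psol (Cfsg.Agent.Lib.Helper29.psol_quotient hM _)
      (Cfsg.Agent.Lib.Helper21.pCore_quotient_eq_bot p)
  have hnc : ¬ F ≤ centralizer ((A.map π : Subgroup (M ⧸ pCore p M)) : Set (M ⧸ pCore p M)) := by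
    intro h
    apply hĀne
    rw [eq_bot_iff, ← hdisj]
    exact le_inf le_rfl ((le_centralizer_iff.mp h).trans hHH)
  have hgen := Cfsg.Agent.Lib.Helper9.gen_hyperplanes p (A.map π) F hĀ hcard hFnd hnorm
  obtain ⟨B', hB'⟩ : ∃ B' : {B : Subgroup (M ⧸ pCore p M) // B ≤ A.map π ∧ B.relIndex (A.map π) = p},
      ¬ F ⊓ centralizer ((B' : Subgroup (M ⧸ pCore p M)) : Set (M ⧸ pCore p M)) ≤
        centralizer ((A.map π : Subgroup (M ⧸ pCore p M)) : Set (M ⧸ pCore p M)) := by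
    by_contra hcon
    push Not at hcon
    apply hnc
    rw [hgen]
    exact iSup_le hcon
  obtain ⟨⟨B₁, hB₁A, hB₁i⟩, hB'⟩ := (⟨B', hB'⟩ : ∃ B' : {B : Subgroup (M ⧸ pCore p M) //
      B ≤ A.map π ∧ B.relIndex (A.map π) = p},
      ¬ F ⊓ centralizer ((B' : Subgroup (M ⧸ pCore p M)) : Set (M ⧸ pCore p M)) ≤
        centralizer ((A.map π : Subgroup (M ⧸ pCore p M)) : Set (M ⧸ pCore p M)))
  obtain ⟨f, hf, hfn⟩ := SetLike.not_le_iff_exists.mp hB'
  obtain ⟨x₀, rfl⟩ := hπs f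
  have hXn : (F.comap π).Normal := hFn.comap π
  have c : LCtx p (pCore p M) (F.comap π) A (A ⊓ B₁.comap π) := by
    refine ⟨?_, ?_, hA, hAA, inf_le_left, ?_, ?_⟩
    · intro g hg
      rw [mem_comap, (hmemP g).mpr hg]
      exact F.one_mem
    · intro R hR hRp g hg
      rw [← hmemP]
      have h1 : π g ∈ R.map π ⊓ F := ⟨mem_map_of_mem π hg, hR hg⟩
      have h2 : R.map π ⊓ F = ⊥ := by
        apply (disjoint_of_coprime_card _).eq_bot
        obtain ⟨m, hm⟩ := IsPGroup.iff_card.mp (hRp.map π)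
        rw [hm]
        exact (Nat.Coprime.pow_left m hFc.symm)
      rwa [h2, mem_bot] at h1
    · apply le_normalizer_of_forall_conj_mem
      intro a ha b hb
      refine ⟨A.mul_mem (A.mul_mem ha hb.1) (A.inv_mem ha), ?_⟩
      change π (a * b * a⁻¹) ∈ B₁
      have : π (a * b * a⁻¹) = π b := by
        rw [map_mul, map_mul, map_inv, hcomm a ha b hb.1]; group
      rw [this]
      exact hb.2
    · rw [inf_relIndex_left, relIndex_comap]
      exact hB₁i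
  have hx₀ : x₀ ∈ F.comap π ⊓ centMod (pCore p M) (A ⊓ B₁.comap π) := by
    refine ⟨hf.1, ?_⟩
    intro b hb
    rw [← hmemP, commutatorElement_def, map_mul, map_mul, map_mul, map_inv, map_inv]
    have := (mem_centralizer_iff.mp hf.2) (π b) hb.2
    rw [← this]; group
  have hx₀A : ¬ cj x₀ A ≤ A ⊔ pCore p M := by
    intro h
    apply hfn
    rw [mem_centralizer_iff]
    rintro _ ⟨a, ha, rfl⟩
    have h1 : x₀ * a * x₀⁻¹ ∈ A ⊔ pCore p M := h (conj_mem_cj ha)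
    have h2 : π (x₀ * a * x₀⁻¹) ∈ A.map π := by
      have h3 := mem_map_of_mem π h1
      rw [Subgroup.map_sup] at h3
      have h4 : (pCore p M).map π = ⊥ := by
        rw [eq_bot_iff]
        rintro _ ⟨g, hg, rfl⟩
        exact (hmemP g).mpr hg
      rwa [h4, sup_bot_eq] at h3
    have h5 : π x₀ * π a * (π x₀)⁻¹ * (π a)⁻¹ ∈ A.map π ⊓ F := by
      constructor
      · rw [map_mul, map_mul, map_inv] at h2
        exact Subgroup.mul_mem _ h2 (Subgroup.inv_mem _ (mem_map_of_mem π ha))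
      · have e : π x₀ * π a * (π x₀)⁻¹ * (π a)⁻¹ = π x₀ * (π a * (π x₀)⁻¹ * (π a)⁻¹) := by group
        rw [SetLike.mem_coe, e]
        exact F.mul_mem hf.1 (hFn.conj_mem _ (F.inv_mem hf.1) _)
    rw [hdisj, mem_bot] at h5
    calc π a * π x₀ = (π x₀ * π a * (π x₀)⁻¹ * (π a)⁻¹)⁻¹ * (π x₀ * π a) := by group
      _ = π x₀ * π a := by rw [h5, inv_one, one_mul]
  obtain ⟨d, hd1, hd2, hd3⟩ := c.exists_good hPp hx₀ hx₀A
  exact ⟨d, hd1.1, hd3, c.props hPp hd1 hd2 hd3⟩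

end Cfsg.Agent.Lib.Helper1
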