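import Cfsg.Agent.Lib.Helper1.Hall
import Cfsg.Agent.Lib.Helper20.Fitting
set_option autoImplicit false

/-! Normal subgroups of every order inside a normal subgroup of a `p`-group. -/

namespace Cfsg.Agent.Lib.Helper1

open Subgroup

universe u

variable {G : Type u} [Group G]

theorem exists_normal_le_card_pow [Finite G] {p : ℕ} [Fact p.Prime] (hG : IsPGroup p G)
    (N : Subgroup G) [hN : N.Normal] {a : ℕ} (ha : Nat.card N = p ^ a) (k : ℕ) (hk : k ≤ a) :
    ∃ M : Subgroup G, M ≤ N ∧ M.Normal ∧ Nat.card M = p ^ k := by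
  have hp : p.Prime := Fact.out
  induction k with
  | zero => exact ⟨⊥, bot_le, inferInstance, by simp⟩
  | succ k ih =>
    obtain ⟨M, hMN, hMn, hMc⟩ := ih (by omega)
    have hq : IsPGroup p (G ⧸ M) := hG.to_quotient M
    have hnil : Group.IsNilpotent (G ⧸ M) := hq.isNilpotent
    have hNb : (N.map (QuotientGroup.mk' M)).Normal := hN.map _ (QuotientGroup.mk'_surjective M)
    have hne : N.map (QuotientGroup.mk' M) ≠ ⊥ := by
      intro h
      rw [Subgroup.map_eq_bot_iff, QuotientGroup.ker_mk'] at h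
      have h1 := card_le_of_le h
      rw [ha, hMc] at h1
      have : p ^ k < p ^ a := Nat.pow_lt_pow_right hp.one_lt (by omega)
      omega
    obtain ⟨x, hxN, hxc, hx1⟩ := Cfsg.Agent.Lib.Helper20.normal_inf_center_ne_bot _ hne
    have hZp : IsPGroup p ↥(N.map (QuotientGroup.mk' M) ⊓ center (G ⧸ M)) := hq.to_subgroup _
    have hdvd : p ∣ Nat.card ↥(N.map (QuotientGroup.mk' M) ⊓ center (G ⧸ M)) := by
      obtain ⟨j, hj⟩ := IsPGroup.iff_card.mp hZp
      rw [hj]
      apply dvd_pow_self
      rintro rfl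
      rw [pow_zero, card_eq_one] at hj
      have : x ∈ N.map (QuotientGroup.mk' M) ⊓ center (G ⧸ M) := ⟨hxN, hxc⟩
      rw [hj, mem_bot] at this
      exact hx1 this
    obtain ⟨y, hy⟩ := exists_prime_orderOf_dvd_card' p hdvd
    have hyo : orderOf (y : G ⧸ M) = p := by rw [Subgroup.orderOf_coe]; exact hy
    have hZn : (zpowers (y : G ⧸ M)).Normal := by
      constructor
      intro n hn g
      have hc : n ∈ center (G ⧸ M) := (zpowers_le.mpr (mem_inf.mp y.2).2) hn
      rw [mem_center_iff.mp hc g, mul_inv_cancel_right]; exact hn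
    refine ⟨(zpowers (y : G ⧸ M)).comap (QuotientGroup.mk' M), ?_, inferInstance, ?_⟩
    · have h1 : (zpowers (y : G ⧸ M)).comap (QuotientGroup.mk' M) ≤
          (N.map (QuotientGroup.mk' M)).comap (QuotientGroup.mk' M) :=
        comap_mono (zpowers_le.mpr (mem_inf.mp y.2).1)
      rwa [comap_map_eq, QuotientGroup.ker_mk', sup_eq_left.mpr hMN] at h1
    · rw [card_comap_mk', hMc, Nat.card_zpowers, hyo, pow_succ]

end Cfsg.Agent.Lib.Helper1
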