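import Mathlib
import Cfsg.Agent.Lib.Helper1.FF2
import Cfsg.Agent.Lib.Helper4.Subnormal
import Cfsg.Agent.Lib.Helper8.Subn
import Cfsg.Agent.Lib.Helper8.Cores
import Cfsg.Agent.Lib.Helper12.Conj
import Cfsg.Agent.Lib.Helper16.Comm

set_option autoImplicit false
set_option linter.unusedSectionVars false

/-! Two subnormal subgroups acting irreducibly on incomparable commutator modules commute. -/

namespace Cfsg.Agent.Lib.Helper1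

open Subgroup Cfsg
open Cfsg.Agent.Lib.Helper8 (SubnIn)
open Cfsg.Agent.Lib.Helper12 (cj mem_cj conj_mem_cj card_cj cj_commutator cj_eq_of_mem_normalizer
  mem_normalizer_iff_cj normalizer_cj cj_inf cj_mul cj_mono)
open scoped commutatorElement

universe u

variable {G : Type u} [Group G] [Finite G] {p : ℕ} [Fact p.Prime]

structure SI (p : ℕ) (V E E₁ E₂ : Subgroup G) : Prop where
  comm : ∀ a ∈ V, ∀ b ∈ V, a * b = b * a
  exp : ∀ a ∈ V, a ^ p = 1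
  hEV : E ≤ normalizer (V : Set G)
  hf : E ⊓ centralizer (V : Set G) = ⊥
  hgen : E = E₁ ⊔ E₂
  hs₁ : SubnIn E₁ E
  hs₂ : SubnIn E₂ E
  hOp : ∀ R : Subgroup G, SubnIn R E → IsPGroup p R → R = ⊥
  hirr₁ : ∀ U : Subgroup G, U ≤ ⁅V, E₁⁆ → E₁ ≤ normalizer (U : Set G) → U = ⊥ ∨ U = ⁅V, E₁⁆
  hirr₂ : ∀ U : Subgroup G, U ≤ ⁅V, E₂⁆ → E₂ ≤ normalizer (U : Set G) → U = ⊥ ∨ U = ⁅V, E₂⁆
  h12 : ¬ ⁅V, E₁⁆ ≤ ⁅V, E₂⁆
  h21 : ¬ ⁅V, E₂⁆ ≤ ⁅V, E₁⁆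
  hc₁ : 2 < Nat.card E₁
  hc₂ : 2 < Nat.card E₂

namespace SI

variable {V E E₁ E₂ : Subgroup G}

theorem symm (h : SI p V E E₁ E₂) : SI p V E E₂ E₁ :=
  ⟨h.comm, h.exp, h.hEV, h.hf, by rw [h.hgen, sup_comm], h.hs₂, h.hs₁, h.hOp, h.hirr₂, h.hirr₁,
    h.h21, h.h12, h.hc₂, h.hc₁⟩

theorem V₁_le (h : SI p V E E₁ E₂) : ⁅V, E₁⁆ ≤ V :=
  commutator_le_left_of_le_normalizer (h.hs₁.le.trans h.hEV)

theorem cent₁ (h : SI p V E E₁ E₂) : E₁ ⊓ centralizer ((⁅V, E₁⁆ : Subgroup G) : Set G) = ⊥ := by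
  apply h.hOp
  · refine SubnIn.trans (SubnIn.of_normal inf_le_left ?_) h.hs₁
    exact Cfsg.Agent.Lib.Helper16.le_normalizer_inf le_normalizer
      ((Cfsg.Agent.Lib.Helper16.le_normalizer_commutator_right V E₁).trans
        (Cfsg.Agent.Lib.Helper16.normalizer_le_normalizer_centralizer _))
  · intro ⟨x, hx⟩
    refine ⟨1, ?_⟩
    rw [pow_one]
    apply Subtype.ext
    change x ^ p = 1
    have hxE : x ∈ E := h.hs₁.le hx.1
    have h1 : x ^ p ∈ E ⊓ centralizer (V : Set G) := by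
      refine ⟨E.pow_mem hxE p, ?_⟩
      change _ ∈ centralizer _
      rw [mem_centralizer_iff]
      intro v hv
      have hw : ⁅x, v⁆ ∈ ⁅V, E₁⁆ := by
        rw [commutator_comm]; exact commutator_mem_commutator hx.1 hv
      have e1 : x * v * x⁻¹ = ⁅x, v⁆ * v := by rw [commutatorElement_def]; group
      have e2 : x * ⁅x, v⁆ = ⁅x, v⁆ * x := ((mem_centralizer_iff.mp hx.2) _ hw).symm
      have e3 := conj_pow_of_chain e1 e2 p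
      rw [h.exp _ (h.V₁_le hw), one_mul] at e3
      calc v * x ^ p = (x ^ p * v * (x ^ p)⁻¹) * x ^ p := by rw [e3]
        _ = x ^ p * v := by group
    rw [h.hf] at h1
    exact h1

theorem E₁_ne (h : SI p V E E₁ E₂) : E₁ ≠ E := by
  intro he
  apply h.h21
  rw [he]
  exact commutator_mono le_rfl h.hs₂.le

theorem subnIn_sup {A B C : Subgroup G} (hA : SubnIn A C) (hB : SubnIn B C) : SubnIn (A ⊔ B) C := by
  refine ⟨sup_le hA.le hB.le, ?_⟩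
  rw [subgroupOf_sup hA.le hB.le]
  exact Cfsg.Agent.Lib.Helper4.isSubnormal_sup hA.2 hB.2

theorem subnIn_cj {A C : Subgroup G} (hA : SubnIn A C) {x : G} (hx : x ∈ C) : SubnIn (cj x A) C := by
  have h1 := hA.map (MulAut.conj x).toMonoidHom
  have h2 : cj x C = C := Cfsg.Agent.Lib.Helper12.cj_eq_of_mem hx
  rw [show C.map (MulAut.conj x).toMonoidHom = C from h2] at h1
  exact h1

theorem cj_V₁ (h : SI p V E E₁ E₂) {x : G} (hx : x ∈ E) : ⁅V, cj x E₁⁆ = cj x ⁅V, E₁⁆ := by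
  rw [cj_commutator, cj_eq_of_mem_normalizer (h.hEV hx)]

/-- the pair `(E₁, E₁ˣ)`. -/
theorem conjPair (h : SI p V E E₁ E₂) {x : G} (hx : x ∈ E) (hne : cj x ⁅V, E₁⁆ ≠ ⁅V, E₁⁆) :
    SI p V (E₁ ⊔ cj x E₁) E₁ (cj x E₁) ∧ Nat.card ↥(E₁ ⊔ cj x E₁) < Nat.card E := by
  have hs₂ : SubnIn (cj x E₁) E := subnIn_cj h.hs₁ hx
  have hHE : E₁ ⊔ cj x E₁ ≤ E := sup_le h.hs₁.le hs₂.le
  have hH : SubnIn (E₁ ⊔ cj x E₁) E := subnIn_sup h.hs₁ hs₂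
  have hcard : Nat.card ↥(cj x ⁅V, E₁⁆) = Nat.card ↥(⁅V, E₁⁆) := card_cj x _
  constructor
  · refine ⟨h.comm, h.exp, hHE.trans h.hEV, ?_, rfl, h.hs₁.of_le le_sup_left hHE,
      hs₂.of_le le_sup_right hHE, fun R hR hp => h.hOp R (hR.trans hH) hp, h.hirr₁, ?_, ?_, ?_,
      h.hc₁, by rw [card_cj]; exact h.hc₁⟩
    · rw [eq_bot_iff, ← h.hf]
      exact inf_le_inf_right _ hHE
    · intro U hU hN
      rw [h.cj_V₁ hx] at hU ⊢
      have h1 : cj x⁻¹ U ≤ ⁅V, E₁⁆ := Cfsg.Agent.Lib.Helper12.cj_le_iff.mpr (by rwa [inv_inv])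
      have h2 : E₁ ≤ normalizer ((cj x⁻¹ U : Subgroup G) : Set G) := by
        rw [normalizer_cj]
        have := cj_mono (g := x⁻¹) hN
        rwa [Cfsg.Agent.Lib.Helper12.cj_inv_cj] at this
      rcases h.hirr₁ _ h1 h2 with h3 | h3
      · left
        exact Cfsg.Agent.Lib.Helper12.cj_eq_bot_iff.mp h3
      · right
        rw [Cfsg.Agent.Lib.Helper12.cj_eq_iff, inv_inv] at h3
        exact h3
    · rw [h.cj_V₁ hx]
      intro hle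
      exact hne (eq_of_le_of_card_ge hle hcard.le).symm
    · rw [h.cj_V₁ hx]
      intro hle
      exact hne (eq_of_le_of_card_ge hle hcard.ge)
  · obtain ⟨N, hN1, hN2, hN3, -⟩ := h.hs₁.exists_normal h.E₁_ne
    have h1 : cj x E₁ ≤ N := by
      have := cj_mono (g := x) hN1
      rwa [cj_eq_of_mem_normalizer (hN3 hx)] at this
    exact lt_of_le_of_lt (card_le_of_le (sup_le hN1 h1))
      (Cfsg.Agent.Lib.Helper12.card_lt_card_of_lt hN2)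

/-- induction hypothesis -/
def IH (p : ℕ) (V E : Subgroup G) : Prop :=
  ∀ E' E₁' E₂' : Subgroup G, Nat.card E' < Nat.card E → SI p V E' E₁' E₂' →
    ⁅E₁', E₂'⁆ = ⊥ ∧ ⁅V, E₁'⁆ ⊓ ⁅V, E₂'⁆ = ⊥

theorem step (h : SI p V E E₁ E₂) (ih : IH p V E) {x : G} (hx : x ∈ E)
    (hne : x ∉ normalizer ((⁅V, E₁⁆ : Subgroup G) : Set G)) :
    ⁅V, E₁⁆ ⊓ cj x ⁅V, E₁⁆ = ⊥ ∧ E₁ ≤ centralizer ((cj x ⁅V, E₁⁆ : Subgroup G) : Set G) := by
  have hne' : cj x ⁅V, E₁⁆ ≠ ⁅V, E₁⁆ := fun he => hne (mem_normalizer_iff_cj.mpr he)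
  obtain ⟨h1, h2⟩ := h.conjPair hx hne'
  obtain ⟨h3, h4⟩ := ih _ _ _ h2 h1
  rw [h.cj_V₁ hx] at h4
  refine ⟨h4, ?_⟩
  have h5 : E₁ ≤ normalizer ((cj x E₁ : Subgroup G) : Set G) :=
    (commutator_eq_bot_iff_le_centralizer.mp h3).trans (centralizer_le_normalizer _)
  have h6 : E₁ ≤ normalizer ((⁅V, cj x E₁⁆ : Subgroup G) : Set G) :=
    Cfsg.Agent.Lib.Helper16.le_normalizer_commutator (h.hs₁.le.trans h.hEV) h5
  rw [h.cj_V₁ hx] at h6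
  have h7 : ⁅cj x ⁅V, E₁⁆, E₁⁆ = ⊥ := by
    rw [eq_bot_iff, ← h4]
    refine le_inf (commutator_mono ?_ le_rfl) (commutator_le_left_of_le_normalizer h6)
    have := cj_mono (g := x) h.V₁_le
    rwa [cj_eq_of_mem_normalizer (h.hEV hx)] at this
  rw [commutator_comm] at h7
  exact commutator_eq_bot_iff_le_centralizer.mp h7

theorem inf_eq_bot_of (h : SI p V E E₁ E₂) (hA1 : E₂ ≤ normalizer ((⁅V, E₁⁆ : Subgroup G) : Set G)) :
    ⁅V, E₁⁆ ⊓ ⁅V, E₂⁆ = ⊥ := by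
  rcases h.hirr₂ (⁅V, E₁⁆ ⊓ ⁅V, E₂⁆) inf_le_right
    (Cfsg.Agent.Lib.Helper16.le_normalizer_inf hA1
      (Cfsg.Agent.Lib.Helper16.le_normalizer_commutator_right V E₂)) with h1 | h1
  · exact h1
  · exact absurd (inf_eq_right.mp h1) h.h21

theorem le_cent_of (h : SI p V E E₁ E₂) (hA1 : E₂ ≤ normalizer ((⁅V, E₁⁆ : Subgroup G) : Set G)) :
    ⁅⁅V, E₁⁆, E₂⁆ = ⊥ := by
  rw [eq_bot_iff, ← h.inf_eq_bot_of hA1]
  exact le_inf (commutator_le_left_of_le_normalizer hA1) (commutator_mono h.V₁_le le_rfl)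

theorem E₂_ne_bot (h : SI p V E E₁ E₂) : E₂ ≠ ⊥ := by
  intro he
  have := h.hc₂
  rw [he, card_bot] at this
  omega

theorem contra_AB (h : SI p V E E₁ E₂) (ih : IH p V E)
    (hA1 : E₂ ≤ normalizer ((⁅V, E₁⁆ : Subgroup G) : Set G)) {y : G} (hy : y ∈ E₁)
    (hne : y ∉ normalizer ((⁅V, E₂⁆ : Subgroup G) : Set G)) : False := by
  obtain ⟨-, h2⟩ := h.symm.step ih (h.hs₁.le hy) hne
  have h3 : E₂ ≤ centralizer ((⁅V, E₁⁆ : Subgroup G) : Set G) := by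
    have := h.le_cent_of hA1
    rw [commutator_comm] at this
    exact commutator_eq_bot_iff_le_centralizer.mp this
  apply h.E₂_ne_bot
  rw [eq_bot_iff, ← h.symm.cent₁]
  refine le_inf le_rfl ?_
  intro e he
  rw [mem_centralizer_iff]
  intro w hw
  have hwV : w ∈ V := h.symm.V₁_le hw
  have hd : w⁻¹ * (y * w * y⁻¹) ∈ ⁅V, E₁⁆ := by
    have : w⁻¹ * (y * w * y⁻¹) = ⁅w⁻¹, y⁆ := by rw [commutatorElement_def]; group
    rw [this]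
    exact commutator_mem_commutator (V.inv_mem hwV) hy
  have e1 := (mem_centralizer_iff.mp (h3 he)) _ hd
  have e2 := (mem_centralizer_iff.mp (h2 he)) _ (conj_mem_cj (g := y) hw)
  -- `w⁻¹ * c * e = e * w⁻¹ * c`, `c * e = e * c`
  have e3 : w⁻¹ * e = e * w⁻¹ := by
    have : w⁻¹ * e * (y * w * y⁻¹) = e * w⁻¹ * (y * w * y⁻¹) := by
      calc w⁻¹ * e * (y * w * y⁻¹) = w⁻¹ * (e * (y * w * y⁻¹)) := by group
        _ = w⁻¹ * ((y * w * y⁻¹) * e) := by rw [e2]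
        _ = w⁻¹ * (y * w * y⁻¹) * e := by group
        _ = e * (w⁻¹ * (y * w * y⁻¹)) := e1
        _ = e * w⁻¹ * (y * w * y⁻¹) := by group
    exact mul_right_cancel this
  calc w * e = w * (e * w⁻¹) * w := by group
    _ = w * (w⁻¹ * e) * w := by rw [e3]
    _ = e * w := by group

/-- the map `v ↦ v⁻¹ vˣ` from `V₁` to `V₂`. -/
theorem phi_mem (h : SI p V E E₁ E₂) {x : G} (hx : x ∈ E₂) {v : G} (hv : v ∈ ⁅V, E₁⁆) :
    v⁻¹ * (x * v * x⁻¹) ∈ ⁅V, E₂⁆ := by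
  have : v⁻¹ * (x * v * x⁻¹) = ⁅v⁻¹, x⁆ := by rw [commutatorElement_def]; group
  rw [this]
  exact commutator_mem_commutator (V.inv_mem (h.V₁_le hv)) hx

theorem phi_inj (h : SI p V E E₁ E₂) {x : G} (hx : x ∈ E)
    (hdisj : ⁅V, E₁⁆ ⊓ cj x ⁅V, E₁⁆ = ⊥) {a b c d : G} (ha : a ∈ ⁅V, E₁⁆) (hb : b ∈ ⁅V, E₁⁆)
    (hc : c ∈ cj x ⁅V, E₁⁆) (hd : d ∈ cj x ⁅V, E₁⁆) (he : a⁻¹ * c = b⁻¹ * d) : a = b ∧ c = d := by
  have hcV : cj x ⁅V, E₁⁆ ≤ V := by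
    have := cj_mono (g := x) h.V₁_le
    rwa [cj_eq_of_mem_normalizer (h.hEV hx)] at this
  have e1 : b * a⁻¹ = d * c⁻¹ := by
    calc b * a⁻¹ = b * (a⁻¹ * c) * c⁻¹ := by group
      _ = b * (b⁻¹ * d) * c⁻¹ := by rw [he]
      _ = d * c⁻¹ := by group
  have h1 : b * a⁻¹ ∈ ⁅V, E₁⁆ ⊓ cj x ⁅V, E₁⁆ :=
    ⟨Subgroup.mul_mem _ hb (Subgroup.inv_mem _ ha),
      by rw [e1]; exact Subgroup.mul_mem _ hd (Subgroup.inv_mem _ hc)⟩
  rw [hdisj, mem_bot] at h1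
  have h2 : d * c⁻¹ = 1 := by rw [← e1, h1]
  exact ⟨(mul_inv_eq_one.mp h1).symm, (mul_inv_eq_one.mp h2).symm⟩

theorem card_le (h : SI p V E E₁ E₂) (ih : IH p V E) {x : G} (hx : x ∈ E₂)
    (hne : x ∉ normalizer ((⁅V, E₁⁆ : Subgroup G) : Set G)) :
    Nat.card ↥(⁅V, E₁⁆) ≤ Nat.card ↥(⁅V, E₂⁆) := by
  obtain ⟨h1, -⟩ := h.step ih (h.hs₂.le hx) hne
  apply Nat.card_le_card_of_injective
    (fun v : ↥(⁅V, E₁⁆) => (⟨(v : G)⁻¹ * (x * v * x⁻¹), h.phi_mem hx v.2⟩ : ↥(⁅V, E₂⁆)))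
  intro v w hvw
  have := congrArg Subtype.val hvw
  exact Subtype.ext (h.phi_inj (h.hs₂.le hx) h1 v.2 w.2 (conj_mem_cj v.2) (conj_mem_cj w.2) this).1

theorem phi_surj (h : SI p V E E₁ E₂) (ih : IH p V E) {x : G} (hx : x ∈ E₂)
    (hne : x ∉ normalizer ((⁅V, E₁⁆ : Subgroup G) : Set G))
    (hcard : Nat.card ↥(⁅V, E₂⁆) ≤ Nat.card ↥(⁅V, E₁⁆)) {u : G} (hu : u ∈ ⁅V, E₂⁆) :
    ∃ v ∈ ⁅V, E₁⁆, u = v⁻¹ * (x * v * x⁻¹) := by
  obtain ⟨h1, -⟩ := h.step ih (h.hs₂.le hx) hne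
  have hinj : Function.Injective
      (fun v : ↥(⁅V, E₁⁆) => (⟨(v : G)⁻¹ * (x * v * x⁻¹), h.phi_mem hx v.2⟩ : ↥(⁅V, E₂⁆))) := by
    intro v w hvw
    have := congrArg Subtype.val hvw
    exact Subtype.ext
      (h.phi_inj (h.hs₂.le hx) h1 v.2 w.2 (conj_mem_cj v.2) (conj_mem_cj w.2) this).1
  obtain ⟨v, hv⟩ := (hinj.bijective_of_nat_card_le hcard).2 ⟨u, hu⟩
  exact ⟨v, v.2, (congrArg Subtype.val hv).symm⟩

theorem contra_BB (h : SI p V E E₁ E₂) (ih : IH p V E) {x y : G} (hx : x ∈ E₂)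
    (hxn : x ∉ normalizer ((⁅V, E₁⁆ : Subgroup G) : Set G)) (hy : y ∈ E₁)
    (hyn : y ∉ normalizer ((⁅V, E₂⁆ : Subgroup G) : Set G)) : False := by
  have hxE := h.hs₂.le hx
  have hc1 := h.card_le ih hx hxn
  have hc2 := h.symm.card_le ih hy hyn
  obtain ⟨hd, hcen⟩ := h.step ih hxE hxn
  have hsurj := fun u hu => h.phi_surj ih hx hxn hc2 (u := u) hu
  -- (iii)
  have h3 : ∀ e ∈ E₁, e ∈ normalizer ((⁅V, E₂⁆ : Subgroup G) : Set G) → e = 1 := by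
    intro e he hen
    have h4 : e ∈ E₁ ⊓ centralizer ((⁅V, E₁⁆ : Subgroup G) : Set G) := by
      refine ⟨he, ?_⟩
      change _ ∈ centralizer _
      rw [mem_centralizer_iff]
      intro v hv
      have h5 : e * (v⁻¹ * (x * v * x⁻¹)) * e⁻¹ ∈ ⁅V, E₂⁆ :=
        conj_mem_of_mem_normalizer hen (h.phi_mem hx hv)
      obtain ⟨w, hw, e1⟩ := hsurj _ h5
      have e2 : e * (x * v * x⁻¹) * e⁻¹ = x * v * x⁻¹ := by
        have := (mem_centralizer_iff.mp (hcen he)) _ (conj_mem_cj (g := x) hv)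
        rw [← this]; group
      have e3 : (e * v * e⁻¹)⁻¹ * (x * v * x⁻¹) = w⁻¹ * (x * w * x⁻¹) := by
        rw [← e1]
        calc (e * v * e⁻¹)⁻¹ * (x * v * x⁻¹) = (e * v * e⁻¹)⁻¹ * (e * (x * v * x⁻¹) * e⁻¹) := by
              rw [e2]
          _ = e * (v⁻¹ * (x * v * x⁻¹)) * e⁻¹ := by group
      have hev : e * v * e⁻¹ ∈ ⁅V, E₁⁆ :=
        conj_mem_of_mem_normalizer (Cfsg.Agent.Lib.Helper16.le_normalizer_commutator_right V E₁ he) hv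
      obtain ⟨e4, e5⟩ := h.phi_inj hxE hd hev hw (conj_mem_cj hv) (conj_mem_cj hw) e3
      have e6 : v = w := by
        have : x * v * x⁻¹ = x * w * x⁻¹ := e5
        have := mul_right_cancel this
        exact mul_left_cancel this
      rw [← e6] at e4
      calc v * e = (e * v * e⁻¹) * e := by rw [e4]
        _ = e * v := by group
    rw [h.cent₁, mem_bot] at h4
    exact h4
  -- three distinct elements
  haveI : Fintype ↥E₁ := Fintype.ofFinite _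
  have hc := h.hc₁
  rw [Nat.card_eq_fintype_card, Fintype.two_lt_card_iff] at hc
  obtain ⟨a, b, c, hab, hac, hbc⟩ := hc
  obtain ⟨e, he, he1, e', he', he'1, hee'⟩ :
      ∃ e ∈ E₁, e ≠ 1 ∧ ∃ e' ∈ E₁, e' ≠ 1 ∧ e'⁻¹ * e ≠ 1 := by
    refine ⟨(a : G)⁻¹ * b, E₁.mul_mem (E₁.inv_mem a.2) b.2, ?_, (a : G)⁻¹ * c,
      E₁.mul_mem (E₁.inv_mem a.2) c.2, ?_, ?_⟩
    · intro h1
      exact hab (Subtype.ext (inv_mul_eq_one.mp h1))
    · intro h1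
      exact hac (Subtype.ext (inv_mul_eq_one.mp h1))
    · intro h1
      apply hbc
      apply Subtype.ext
      have h2 : ((a : G)⁻¹ * c)⁻¹ * ((a : G)⁻¹ * b) = (c : G)⁻¹ * b := by group
      rw [h2] at h1
      exact (inv_mul_eq_one.mp h1).symm
  have hn1 : e ∉ normalizer ((⁅V, E₂⁆ : Subgroup G) : Set G) := fun hh => he1 (h3 e he hh)
  have hn2 : e' ∉ normalizer ((⁅V, E₂⁆ : Subgroup G) : Set G) := fun hh => he'1 (h3 e' he' hh)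
  have hn3 : e'⁻¹ * e ∉ normalizer ((⁅V, E₂⁆ : Subgroup G) : Set G) :=
    fun hh => hee' (h3 _ (E₁.mul_mem (E₁.inv_mem he') he) hh)
  obtain ⟨-, k1⟩ := h.symm.step ih (h.hs₁.le he) hn1
  obtain ⟨-, k2⟩ := h.symm.step ih (h.hs₁.le he') hn2
  obtain ⟨k3, -⟩ := h.symm.step ih (h.hs₁.le (E₁.mul_mem (E₁.inv_mem he') he)) hn3
  have k4 : cj e' ⁅V, E₂⁆ ⊓ cj e ⁅V, E₂⁆ = ⊥ := by
    have := congrArg (cj e') k3
    rw [cj_inf, ← cj_mul, Cfsg.Agent.Lib.Helper12.cj_bot] at this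
    rwa [show e' * (e'⁻¹ * e) = e by group] at this
  -- `U`
  have hV2U : ⁅V, E₂⁆ ≤ ⁅V, E₁⁆ ⊔ cj x ⁅V, E₁⁆ := by
    intro u hu
    obtain ⟨v, hv, rfl⟩ := hsurj u hu
    exact mul_mem (mem_sup_left (inv_mem hv)) (mem_sup_right (conj_mem_cj hv))
  have hE1U : E₁ ≤ normalizer ((⁅V, E₁⁆ ⊔ cj x ⁅V, E₁⁆ : Subgroup G) : Set G) :=
    Cfsg.Agent.Lib.Helper16.le_normalizer_sup
      (Cfsg.Agent.Lib.Helper16.le_normalizer_commutator_right V E₁)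
      (hcen.trans (centralizer_le_normalizer _))
  have hU1 : cj e ⁅V, E₂⁆ ≤ ⁅V, E₁⁆ ⊔ cj x ⁅V, E₁⁆ := by
    have := cj_mono (g := e) hV2U
    rwa [cj_eq_of_mem_normalizer (hE1U he)] at this
  have hU2 : cj e' ⁅V, E₂⁆ ≤ ⁅V, E₁⁆ ⊔ cj x ⁅V, E₁⁆ := by
    have := cj_mono (g := e') hV2U
    rwa [cj_eq_of_mem_normalizer (hE1U he')] at this
  have hcV : cj x ⁅V, E₁⁆ ≤ V := by
    have := cj_mono (g := x) h.V₁_le
    rwa [cj_eq_of_mem_normalizer (h.hEV hxE)] at this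
  have hnorm : ⁅V, E₁⁆ ≤ normalizer ((cj x ⁅V, E₁⁆ : Subgroup G) : Set G) := by
    refine le_trans ?_ (centralizer_le_normalizer _)
    intro v hv
    rw [mem_centralizer_iff]
    intro w hw
    exact h.comm w (hcV hw) v (h.V₁_le hv)
  have c1 := Cfsg.Agent.Lib.Helper4.card_mul_card_eq_of_le_normalizer _ _ hnorm
  rw [hd, card_bot, mul_one, card_cj] at c1
  have c2 := Cfsg.Agent.Lib.Helper4.card_mul_card_le (cj e' ⁅V, E₂⁆) (cj e ⁅V, E₂⁆)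
  rw [k4, card_bot, mul_one, card_cj, card_cj] at c2
  have hEq : cj e' ⁅V, E₂⁆ ⊔ cj e ⁅V, E₂⁆ = ⁅V, E₁⁆ ⊔ cj x ⁅V, E₁⁆ := by
    apply eq_of_le_of_card_ge (sup_le hU2 hU1)
    rw [← c1]
    calc Nat.card ↥(⁅V, E₁⁆) * Nat.card ↥(⁅V, E₁⁆)
        ≤ Nat.card ↥(⁅V, E₂⁆) * Nat.card ↥(⁅V, E₂⁆) := Nat.mul_le_mul hc1 hc1
      _ ≤ _ := c2
  apply h.E₂_ne_bot
  rw [eq_bot_iff, ← h.symm.cent₁]
  refine le_inf le_rfl ?_
  have k5 : cj e' ⁅V, E₂⁆ ⊔ cj e ⁅V, E₂⁆ ≤ centralizer (E₂ : Set G) :=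
    sup_le (le_centralizer_iff.mp k2) (le_centralizer_iff.mp k1)
  rw [hEq] at k5
  exact le_centralizer_iff.mp (hV2U.trans k5)

theorem main_aux (n : ℕ) : ∀ E E₁ E₂ : Subgroup G, Nat.card E = n → SI p V E E₁ E₂ →
    ⁅E₁, E₂⁆ = ⊥ ∧ E₁ ⊓ E₂ = ⊥ ∧ ⁅V, E₁⁆ ⊓ ⁅V, E₂⁆ = ⊥ := by
  induction n using Nat.strong_induction_on with
  | _ n ihn =>
    intro E E₁ E₂ hn h
    have ih : IH p V E := by
      intro E' E₁' E₂' hlt h'
      obtain ⟨h1, -, h3⟩ := ihn _ (hn ▸ hlt) E' E₁' E₂' rfl h'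
      exact ⟨h1, h3⟩
    by_cases hA1 : E₂ ≤ normalizer ((⁅V, E₁⁆ : Subgroup G) : Set G)
    · by_cases hA2 : E₁ ≤ normalizer ((⁅V, E₂⁆ : Subgroup G) : Set G)
      · have k1 := h.le_cent_of hA1
        have k2 := h.symm.le_cent_of hA2
        have k3 : ⁅⁅E₁, E₂⁆, V⁆ = ⊥ := by
          apply commutator_commutator_eq_bot_of_rotate
          · rw [commutator_comm E₂ V]; exact k2
          · exact k1
        refine ⟨?_, ?_, h.inf_eq_bot_of hA1⟩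
        · rw [eq_bot_iff, ← h.hf]
          refine le_inf ?_ (commutator_eq_bot_iff_le_centralizer.mp k3)
          rw [commutator_le]
          intro a ha b hb
          exact E.mul_mem (E.mul_mem (E.mul_mem (h.hs₁.le ha) (h.hs₂.le hb))
            (E.inv_mem (h.hs₁.le ha))) (E.inv_mem (h.hs₂.le hb))
        · rw [eq_bot_iff, ← h.cent₁]
          refine le_inf inf_le_left (inf_le_right.trans ?_)
          rw [commutator_comm] at k1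
          exact commutator_eq_bot_iff_le_centralizer.mp k1
      · obtain ⟨y, hy, hyn⟩ := SetLike.not_le_iff_exists.mp hA2
        exact (h.contra_AB ih hA1 hy hyn).elim
    · obtain ⟨x, hx, hxn⟩ := SetLike.not_le_iff_exists.mp hA1
      by_cases hA2 : E₁ ≤ normalizer ((⁅V, E₂⁆ : Subgroup G) : Set G)
      · exact (h.symm.contra_AB ih hA2 hx hxn).elim
      · obtain ⟨y, hy, hyn⟩ := SetLike.not_le_iff_exists.mp hA2
        exact (h.contra_BB ih hx hxn hy hyn).elim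

theorem main (h : SI p V E E₁ E₂) :
    ⁅E₁, E₂⁆ = ⊥ ∧ E₁ ⊓ E₂ = ⊥ ∧ ⁅V, E₁⁆ ⊓ ⁅V, E₂⁆ = ⊥ ∧ ⁅V, E⁆ = ⁅V, E₁⁆ ⊔ ⁅V, E₂⁆ := by
  obtain ⟨h1, h2, h3⟩ := main_aux _ E E₁ E₂ rfl h
  refine ⟨h1, h2, h3, ?_⟩
  rw [h.hgen]
  exact commutator_sup_eq h.V₁_le h.symm.V₁_le

end SI

end Cfsg.Agent.Lib.Helper1
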