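import Cfsg.Agent.Lib.Helper1.HallConverse
import Cfsg.Agent.Lib.Helper1.Fitting
set_option autoImplicit false
open Pointwise

namespace Cfsg.Agent.Lib.Helper1

open Subgroup MulAction

universe u

variable {G : Type u} [Group G]

/-- The join of two permuting subgroups is their product set. -/
theorem coe_sup_of_mul_comm (H K : Subgroup G) (h : (H : Set G) * K = K * H) :
    ((H ⊔ K : Subgroup G) : Set G) = H * K := by
  let L : Subgroup G :=
    { carrier := (H : Set G) * K
      one_mem' := ⟨1, H.one_mem, 1, K.one_mem, one_mul 1⟩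
      mul_mem' := by
        rintro _ _ ⟨h₁, hh₁, k₁, hk₁, rfl⟩ ⟨h₂, hh₂, k₂, hk₂, rfl⟩
        have : k₁ * h₂ ∈ (H : Set G) * K := h ▸ ⟨k₁, hk₁, h₂, hh₂, rfl⟩
        obtain ⟨h₃, hh₃, k₃, hk₃, e⟩ := this
        refine ⟨h₁ * h₃, H.mul_mem hh₁ hh₃, k₃ * k₂, K.mul_mem hk₃ hk₂, ?_⟩
        change h₁ * h₃ * (k₃ * k₂) = h₁ * k₁ * (h₂ * k₂)
        change h₃ * k₃ = k₁ * h₂ at e
        calc h₁ * h₃ * (k₃ * k₂) = h₁ * (h₃ * k₃) * k₂ := by group
          _ = h₁ * (k₁ * h₂) * k₂ := by rw [e]
          _ = h₁ * k₁ * (h₂ * k₂) := by group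
      inv_mem' := by
        rintro _ ⟨h₁, hh₁, k₁, hk₁, rfl⟩
        rw [h]
        exact ⟨k₁⁻¹, K.inv_mem hk₁, h₁⁻¹, H.inv_mem hh₁, (mul_inv_rev h₁ k₁).symm⟩ }
  apply Set.Subset.antisymm
  · have : H ⊔ K ≤ L := sup_le (fun x hx => ⟨x, hx, 1, K.one_mem, mul_one x⟩)
      (fun x hx => ⟨1, H.one_mem, x, hx, one_mul x⟩)
    exact this
  · rintro _ ⟨a, ha, b, hb, rfl⟩
    exact (H ⊔ K).mul_mem (mem_sup_left ha) (mem_sup_right hb)

theorem sup_permuting (S : ℕ → Subgroup G)
    (hS : ∀ q r, (S q : Set G) * (S r : Set G) = (S r : Set G) * (S q : Set G)) (F : Finset ℕ) :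
    (∀ a, (S a : Set G) * ((F.sup S : Subgroup G) : Set G) = ((F.sup S : Subgroup G) : Set G) * S a) ∧
      Nat.card (F.sup S : Subgroup G) ≤ ∏ q ∈ F, Nat.card (S q) := by
  classical
  induction F using Finset.induction_on with
  | empty =>
    refine ⟨fun a => ?_, ?_⟩
    · simp
    · simp
  | insert b F hb ih =>
    obtain ⟨ih1, ih2⟩ := ih
    have hcoe : (((insert b F).sup S : Subgroup G) : Set G) =
        (S b : Set G) * ((F.sup S : Subgroup G) : Set G) := by
      rw [Finset.sup_insert]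
      exact coe_sup_of_mul_comm _ _ (ih1 b)
    refine ⟨fun a => ?_, ?_⟩
    · rw [hcoe, ← mul_assoc, hS a b, mul_assoc, ih1 a, mul_assoc]
    · rw [Finset.prod_insert hb]
      calc Nat.card ((insert b F).sup S : Subgroup G)
          = Nat.card ((((insert b F).sup S : Subgroup G) : Set G)) := rfl
        _ = Nat.card ((S b : Set G) * ((F.sup S : Subgroup G) : Set G) : Set G) := by rw [hcoe]
        _ ≤ Nat.card (S b : Set G) * Nat.card ((F.sup S : Subgroup G) : Set G) :=
          Set.natCard_mul_le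
        _ ≤ Nat.card (S b) * ∏ q ∈ F, Nat.card (S q) := Nat.mul_le_mul_left _ ih2

theorem hasPComplements_of_sylow_system [Finite G] (S : (p : Nat.Primes) → Sylow (p : ℕ) G)
    (hS : ∀ p q : Nat.Primes, (S p : Set G) * (S q : Set G) = (S q : Set G) * (S p : Set G)) :
    HasPComplements G := by
  classical
  intro p hp
  set n := Nat.card G with hn
  have hn0 : n ≠ 0 := Nat.card_pos.ne'
  let S' : ℕ → Subgroup G := fun q => if h : q.Prime then (S ⟨q, h⟩ : Subgroup G) else ⊥
  have hS'p : ∀ (q : ℕ) (h : q.Prime), S' q = (S ⟨q, h⟩ : Subgroup G) := fun q h => dif_pos h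
  have hS'n : ∀ (q : ℕ) (_ : ¬ q.Prime), S' q = ⊥ := fun q h => dif_neg h
  have hperm : ∀ q r, (S' q : Set G) * (S' r : Set G) = (S' r : Set G) * (S' q : Set G) := by
    intro q r
    by_cases hq : q.Prime
    · by_cases hr : r.Prime
      · rw [hS'p q hq, hS'p r hr]; exact hS _ _
      · rw [hS'n r hr]; simp
    · rw [hS'n q hq]; simp
  have hcard : ∀ q, q.Prime → Nat.card (S' q) = q ^ n.factorization q := by
    intro q hq
    have := Fact.mk hq
    rw [hS'p q hq]
    exact (S ⟨q, hq⟩).card_eq_multiplicity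
  obtain ⟨-, hle⟩ := sup_permuting S' hperm (n.primeFactors.erase p)
  refine ⟨(n.primeFactors.erase p).sup S', ?_⟩
  set T := (n.primeFactors.erase p).sup S' with hT
  have hprod : n = ∏ q ∈ n.primeFactors, q ^ n.factorization q := by
    conv_lhs => rw [← Nat.prod_factorization_pow_eq_self hn0]
    rw [Nat.prod_factorization_eq_prod_primeFactors]
  have h1 : p ^ n.factorization p * ∏ q ∈ n.primeFactors.erase p, q ^ n.factorization q = n := by
    rw [mul_prod_erase' (fun q => q ^ n.factorization q), ← hprod]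
    intro hpn
    rw [Nat.factorization_eq_zero_of_not_dvd, pow_zero]
    intro hd
    exact hpn (Nat.mem_primeFactors.2 ⟨hp, hd, hn0⟩)
  have h2 : Nat.card T ≤ ∏ q ∈ n.primeFactors.erase p, q ^ n.factorization q := by
    refine hle.trans (le_of_eq ?_)
    apply Finset.prod_congr rfl
    intro q hq
    exact hcard q (Nat.prime_of_mem_primeFactors (Finset.mem_of_mem_erase hq))
  have h3 : n ∣ p ^ n.factorization p * Nat.card T := by
    apply dvd_of_forall_prime_pow_dvd hn0
      (mul_ne_zero (pow_ne_zero _ hp.ne_zero) Nat.card_pos.ne')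
    intro q hq
    by_cases hqp : q = p
    · rw [hqp]; exact dvd_mul_right _ _
    · by_cases hqn : q ∣ n
      · apply Dvd.dvd.mul_left
        rw [← hcard q hq]
        apply card_dvd_of_le
        exact Finset.le_sup (f := S')
          (Finset.mem_erase.2 ⟨hqp, Nat.mem_primeFactors.2 ⟨hq, hqn, hn0⟩⟩)
      · rw [Nat.factorization_eq_zero_of_not_dvd hqn, pow_zero]; exact one_dvd _
  have h4 : p ^ n.factorization p * Nat.card T = n := by
    apply le_antisymm
    · calc p ^ n.factorization p * Nat.card T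
          ≤ p ^ n.factorization p * ∏ q ∈ n.primeFactors.erase p, q ^ n.factorization q :=
            Nat.mul_le_mul_left _ h2
        _ = n := h1
    · exact Nat.le_of_dvd (Nat.mul_pos (pow_pos hp.pos _) Nat.card_pos) h3
  have h5 := T.card_mul_index
  rw [← hn, ← h4, mul_comm] at h5
  exact Nat.eq_of_mul_eq_mul_right Nat.card_pos h5

end Cfsg.Agent.Lib.Helper1
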