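import Cfsg.Agent.Lib.Helper1.Hall
set_option autoImplicit false
open Pointwise

namespace Cfsg.Agent.Lib.Helper1

open Subgroup MulAction

universe u

variable {G : Type u} [Group G]

/-- A `p`-subgroup is conjugate into any subgroup of index prime to `p`. -/
theorem exists_conj_le_of_not_dvd_index [Finite G] {p : ℕ} [Fact p.Prime] {N H : Subgroup G}
    (hN : IsPGroup p N) (hH : ¬ p ∣ H.index) : ∃ g : G, MulAut.conj g • N ≤ H := by
  obtain ⟨P₀⟩ : Nonempty (Sylow p H) := inferInstance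
  have hidx : ¬ p ∣ ((P₀ : Subgroup H).map H.subtype).index := by
    rw [index_map_subtype]
    exact fun h => ((Fact.out : p.Prime).dvd_mul.mp h).elim P₀.not_dvd_index hH
  obtain ⟨Q, hQ⟩ := hN.exists_le_sylow
  obtain ⟨g, hg⟩ := MulAction.exists_smul_eq G Q ((P₀.2.map H.subtype).toSylow hidx)
  refine ⟨g, ?_⟩
  have h1 : MulAut.conj g • (Q : Subgroup G) = (P₀ : Subgroup H).map H.subtype := by
    have := congrArg (fun S : Sylow p G => (S : Subgroup G)) hg
    simpa [Sylow.smul_def, Sylow.pointwise_smul_def] using this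
  calc MulAut.conj g • N ≤ MulAut.conj g • (Q : Subgroup G) :=
        pointwise_smul_le_pointwise_smul_iff.mpr hQ
    _ = (P₀ : Subgroup H).map H.subtype := h1
    _ ≤ H := map_subtype_le _

theorem three_solvable_aux : ∀ (n : ℕ) (G : Type u) [Group G] [Finite G], Nat.card G = n →
    ∀ H₁ H₂ H₃ : Subgroup G, Group.IsSolvable H₁ → Group.IsSolvable H₂ → Group.IsSolvable H₃ →
    (∀ g : G, ∃ x ∈ H₁, ∃ y ∈ H₂, g = x * y) → (∀ g : G, ∃ x ∈ H₁, ∃ y ∈ H₃, g = x * y) →
    H₂.index.Coprime H₃.index → Group.IsSolvable G := by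
  intro n
  induction n using Nat.strong_induction_on with
  | _ n ih =>
  intro G _ _ hn H₁ H₂ H₃ h₁ h₂ h₃ h12 h13 hcop
  by_cases hb : H₁ = ⊥
  · have htop : H₂ = ⊤ := by
      rw [eq_top_iff]
      intro g _
      obtain ⟨x, hx, y, hy, rfl⟩ := h12 g
      rw [hb, mem_bot] at hx
      rw [hx, one_mul]; exact hy
    rw [htop] at h₂
    exact Group.isSolvable_of_surjective (f := (⊤ : Subgroup G).subtype)
      (fun g => ⟨⟨g, mem_top g⟩, rfl⟩)
  · have hnt : Nontrivial H₁ := (nontrivial_iff_ne_bot H₁).2 hb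
    obtain ⟨p, M₀, hp, hM₀n, hM₀ne, -, hM₀e⟩ := exists_normal_elementary_abelian (G := H₁)
    have := Fact.mk hp
    have hNp : IsPGroup p (M₀.map H₁.subtype) := (isPGroup_of_pow_eq_one hM₀e).map _
    have hNH₁ : ∀ x ∈ H₁, ∀ u ∈ M₀.map H₁.subtype, x * u * x⁻¹ ∈ M₀.map H₁.subtype := by
      rintro x hx _ ⟨u, hu, rfl⟩
      exact ⟨⟨x, hx⟩ * u * ⟨x, hx⟩⁻¹, hM₀n.conj_mem u hu _, rfl⟩
    have hNne : M₀.map H₁.subtype ≠ ⊥ := by
      rw [Ne, map_eq_bot_iff_of_injective _ H₁.subtype_injective]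
      exact hM₀ne
    have key : ∀ H : Subgroup G, Group.IsSolvable H → (∀ g : G, ∃ x ∈ H₁, ∃ y ∈ H, g = x * y) →
        ¬ p ∣ H.index → ∃ M : Subgroup G, M.Normal ∧ M ≠ ⊥ ∧ Group.IsSolvable M := by
      intro H hH hfac hidx
      obtain ⟨g, hg⟩ := exists_conj_le_of_not_dvd_index hNp hidx
      have hNH : M₀.map H₁.subtype ≤ H := by
        obtain ⟨x, hx, y, hy, e⟩ := hfac g⁻¹
        intro u hu
        have h1 : x * u * x⁻¹ ∈ M₀.map H₁.subtype := hNH₁ x hx u hu
        have h2 : g * (x * u * x⁻¹) * g⁻¹ ∈ H := hg (conj_mem_conj_smul h1)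
        have hge : g = y⁻¹ * x⁻¹ := by
          rw [← inv_inv g, e]; group
        have h3 : u = y * (g * (x * u * x⁻¹) * g⁻¹) * y⁻¹ := by
          rw [hge]; group
        rw [h3]
        exact H.mul_mem (H.mul_mem hy h2) (H.inv_mem hy)
      refine ⟨normalClosure (M₀.map H₁.subtype : Set G), inferInstance, ?_, ?_⟩
      · intro hbot
        apply hNne
        rw [eq_bot_iff, ← hbot]
        exact le_normalClosure
      · apply solvable_of_le _ hH
        unfold normalClosure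
        rw [closure_le]
        intro v hv
        rw [Group.mem_conjugatesOfSet_iff] at hv
        obtain ⟨u, hu, hc⟩ := hv
        obtain ⟨c, rfl⟩ := isConj_iff.mp hc
        obtain ⟨x, hx, y, hy, e⟩ := hfac c⁻¹
        have hce : c = y⁻¹ * x⁻¹ := by
          rw [← inv_inv c, e]; group
        have h1 : x⁻¹ * u * x⁻¹⁻¹ ∈ M₀.map H₁.subtype := hNH₁ x⁻¹ (H₁.inv_mem hx) u hu
        have h3 : c * u * c⁻¹ = y⁻¹ * (x⁻¹ * u * x⁻¹⁻¹) * y := by
          rw [hce]; group
        rw [SetLike.mem_coe, h3]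
        exact H.mul_mem (H.mul_mem (H.inv_mem hy) (hNH h1)) hy
    have hM : ∃ M : Subgroup G, M.Normal ∧ M ≠ ⊥ ∧ Group.IsSolvable M := by
      by_cases h2 : p ∣ H₂.index
      · apply key H₃ h₃ h13
        intro h3
        exact hp.one_lt.ne' (Nat.eq_one_of_dvd_coprimes hcop h2 h3)
      · exact key H₂ h₂ h12 h2
    obtain ⟨M, hMn, hMne, hMs⟩ := hM
    have hlt : Nat.card (G ⧸ M) < n := by
      rw [← hn, ← index_eq_card, ← M.card_mul_index]
      have h1 : 1 < Nat.card M := by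
        rw [one_lt_card_iff_ne_bot]; exact hMne
      have h2 : 0 < M.index := Nat.pos_of_ne_zero index_ne_zero_of_finite
      nlinarith
    have hq := ih _ hlt (G ⧸ M) rfl (H₁.map (QuotientGroup.mk' M)) (H₂.map (QuotientGroup.mk' M))
      (H₃.map (QuotientGroup.mk' M)) (solvable_map _ h₁) (solvable_map _ h₂) (solvable_map _ h₃)
      (by
        intro g
        obtain ⟨g, rfl⟩ := QuotientGroup.mk'_surjective M g
        obtain ⟨x, hx, y, hy, rfl⟩ := h12 g
        exact ⟨_, ⟨x, hx, rfl⟩, _, ⟨y, hy, rfl⟩, map_mul _ _ _⟩)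
      (by
        intro g
        obtain ⟨g, rfl⟩ := QuotientGroup.mk'_surjective M g
        obtain ⟨x, hx, y, hy, rfl⟩ := h13 g
        exact ⟨_, ⟨x, hx, rfl⟩, _, ⟨y, hy, rfl⟩, map_mul _ _ _⟩)
      (Nat.Coprime.coprime_dvd_left (index_map_dvd H₂ (QuotientGroup.mk'_surjective M))
        (Nat.Coprime.coprime_dvd_right (index_map_dvd H₃ (QuotientGroup.mk'_surjective M)) hcop))
    exact Group.isSolvable_of_ker_le_range M.subtype (QuotientGroup.mk' M)
      (by rw [QuotientGroup.ker_mk', range_subtype])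

end Cfsg.Agent.Lib.Helper1
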